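import Cfsg.Agent.Lib.DefBlocks.Final
import Cfsg.Agent.Lib.Blocks.FMT
import Cfsg.Agent.Lib.BlockT.NormalSylow
import Cfsg.Agent.Lib.Classical.SLBasic

/-!
# The number of `p`-blocks of `SL_n(F)` in the defining characteristic

There are `gcd(n, q - 1) + 1` blocks: the block of defect zero and one full defect block for every central
element, through Brauer's first main theorem and the count of the blocks of a group with a normal Sylow
subgroup.
-/

set_option autoImplicit false
set_option linter.unusedSectionVars false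
set_option linter.unusedSimpArgs false
set_option linter.unusedVariables false
set_option linter.style.haveILetI false

namespace Cfsg.Agent.Lib.DefBlocks.SLnData

open Cfsg MonoidAlgebra Subgroup
open Cfsg.Agent.Lib.Blocks.Local Cfsg.Agent.Lib.Blocks.Central
open Cfsg.Agent.Lib.Blocks.Defect2
open Cfsg.Agent.Lib.Blocks.Inducing
open Cfsg.Agent.Lib.KS71.UniTri
open Cfsg.Agent.Lib.DefBlocks.Radical
open Cfsg.Agent.Lib.BlockT.NormalSylow

variable {F : Type*} [Field F] [Fintype F] {n : ℕ} {p : ℕ} [hp : Fact p.Prime] [CharP F p] {M : Ideal AlgInt}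

local notation "SLn" => Matrix.SpecialLinearGroup (Fin n) F

/-- The order of a central element is prime to the characteristic. -/
lemma not_dvd_orderOf_center (hn : 0 < n) {z : SLn} (hz : z ∈ center SLn) : ¬ p ∣ orderOf z := by
  classical
  obtain ⟨r, hr, hrz⟩ := Matrix.SpecialLinearGroup.mem_center_iff.mp hz
  obtain ⟨f, -, hF⟩ := FiniteField.card F p
  have hr0 : r ≠ 0 := by
    rintro rfl
    rw [zero_pow (by simpa using hn.ne')] at hr
    exact zero_ne_one hr
  have h1 : z ^ (Fintype.card F - 1) = 1 := by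
    apply Subtype.ext
    rw [Matrix.SpecialLinearGroup.coe_pow, ← hrz, ← map_pow, FiniteField.pow_card_sub_one_eq_one r hr0, map_one,
      Matrix.SpecialLinearGroup.coe_one]
  intro h
  have h2 : p ∣ Fintype.card F - 1 := h.trans (orderOf_dvd_of_pow_eq_one h1)
  have h3 : p ∣ Fintype.card F := by
    rw [hF]
    exact dvd_pow_self p f.ne_zero
  have h4 : 1 ≤ Fintype.card F := Fintype.card_pos
  have h5 : p ∣ 1 := by
    have := Nat.dvd_sub h3 h2
    rwa [Nat.sub_sub_self h4] at this
  exact hp.out.one_lt.ne' (Nat.dvd_one.mp h5)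

/-- A scalar element lies in the center. -/
lemma mem_center_of_scalar {g : SLn} {c : F} (h : (g : Matrix (Fin n) (Fin n) F) = c • 1) : g ∈ center SLn := by
  rw [Subgroup.mem_center_iff]
  intro x
  apply Subtype.ext
  rw [Matrix.SpecialLinearGroup.coe_mul, Matrix.SpecialLinearGroup.coe_mul, h]
  simp

/-- The Sylow subgroups are radical. -/
lemma sylow_core (S : Sylow p SLn) :
    (Cfsg.pCore p (normalizer ((S : Subgroup SLn) : Set SLn))).map (normalizer ((S : Subgroup SLn) : Set SLn)).subtype =
      (S : Subgroup SLn) := by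
  classical
  set N := normalizer ((S : Subgroup SLn) : Set SLn) with hN
  have hSN : (S : Subgroup SLn) ≤ N := le_normalizer
  have hn : ((S : Subgroup SLn).subgroupOf N).Normal := normal_in_normalizer
  have hpg : IsPGroup p ((S : Subgroup SLn).subgroupOf N) :=
    S.isPGroup'.comap_of_injective N.subtype (subtype_injective _)
  have h1 : (S : Subgroup SLn).subgroupOf N ≤ Cfsg.pCore p N := Cfsg.Agent.Lib.Core.Basic.le_pCore hn hpg
  have h2 : IsPGroup p ((Cfsg.pCore p N).map N.subtype) :=
    (Cfsg.Agent.Lib.Core.Basic.pCore_isPGroup (p := p) (G := N)).map N.subtype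
  refine S.is_maximal' h2 ?_
  intro d hd
  exact ⟨⟨d, hSN hd⟩, h1 (mem_subgroupOf.mpr hd), rfl⟩

/-- The Sylow subgroups of `SL_n(F)` are nontrivial for `n ≥ 2`. -/
lemma sylow_ne_bot (hn : 2 ≤ n) (S : Sylow p SLn) : (S : Subgroup SLn) ≠ ⊥ := by
  classical
  obtain ⟨f, -, hF⟩ := FiniteField.card F p
  intro h
  have h1 := S.card_eq_multiplicity
  rw [h, card_bot] at h1
  have h2 : p ∣ Nat.card SLn := by
    rw [← (U n F).card_mul_index, card_U, hF]
    refine Dvd.dvd.mul_right (dvd_pow (dvd_pow_self p f.ne_zero) ?_) _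
    have h3 : 2 ≤ n * (n - 1) := by nlinarith [Nat.sub_pos_of_lt (show 1 < n by omega)]
    have h4 : 2 ∣ n * (n - 1) := by
      have := Nat.even_mul_pred_self n
      exact this.two_dvd
    omega
  have h3 : (Nat.card SLn).factorization p ≠ 0 := by
    have := (hp.out.dvd_iff_one_le_factorization Nat.card_pos.ne').mp h2
    omega
  have h4 : 1 < p ^ (Nat.card SLn).factorization p := Nat.one_lt_pow h3 hp.out.one_lt
  omega

/-- The number of `p`-blocks of a group whose normalizer of a Sylow subgroup has central regular elements. -/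
theorem card_kappa (hn : 2 ≤ n) (S : Sylow p SLn) (N : Subgroup SLn) (hN : N = normalizer ((S : Subgroup SLn) : Set SLn))
    (Q : Sylow p N) (hQ : (Q : Subgroup N) = (S : Subgroup SLn).subgroupOf N) :
    Nat.card (KappaClass (H := N) p (Q : Subgroup N)) = Nat.card (center SLn) := by
  classical
  have hn0 : 0 < n := by omega
  have hcN : center SLn ≤ N := by
    intro z hz
    rw [hN, mem_set_normalizer_iff]
    intro h
    have e : z * h * z⁻¹ = h := by
      rw [← Subgroup.mem_center_iff.mp hz h]
      group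
    rw [e]
  have hcentral : ∀ (z : N), (z : SLn) ∈ center SLn → ∀ m : N, IsConj z m → m = z := by
    intro z hz m hm
    obtain ⟨c, rfl⟩ := isConj_iff.mp hm
    apply Subtype.ext
    have : (c : SLn) * z * (c : SLn)⁻¹ = z := by
      rw [Subgroup.mem_center_iff.mp hz c]
      group
    exact this
  have hcc : ∀ z : N, (z : SLn) ∈ center SLn → z ∈ center N := by
    intro z hz
    rw [Subgroup.mem_center_iff]
    intro g
    apply Subtype.ext
    exact Subgroup.mem_center_iff.mp hz g
  let φ : center SLn → KappaClass (H := N) p (Q : Subgroup N) := fun z =>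
    ⟨ConjClasses.mk ⟨z, hcN z.2⟩, by
      intro m hm
      have h1 : IsConj (⟨z, hcN z.2⟩ : N) m := (ConjClasses.mk_eq_mk_iff_isConj.mp hm).symm
      have h2 := hcentral ⟨z, hcN z.2⟩ z.2 m h1
      subst h2
      constructor
      · rw [Subgroup.orderOf_mk]
        exact not_dvd_orderOf_center hn0 z.2
      · exact Subgroup.mem_centralizer_iff.mpr fun h _ => (Subgroup.mem_center_iff.mp (hcc ⟨z, hcN z.2⟩ z.2) h)⟩
  refine (Nat.card_congr (Equiv.ofBijective φ ⟨?_, ?_⟩)).symm
  · intro a b hab
    have h1 : (ConjClasses.mk (⟨a, hcN a.2⟩ : N)) = ConjClasses.mk (⟨b, hcN b.2⟩ : N) := congrArg Subtype.val hab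
    have h2 := ConjClasses.mk_eq_mk_iff_isConj.mp h1
    have h3 := hcentral ⟨a, hcN a.2⟩ a.2 _ h2
    apply Subtype.ext
    exact (congrArg Subtype.val h3).symm
  · rintro ⟨C, hC⟩
    obtain ⟨m, rfl⟩ := ConjClasses.mk_surjective C
    obtain ⟨h1, h2⟩ := hC m rfl
    have hcomm : ∀ d ∈ (S : Subgroup SLn), (m : SLn) * d = d * (m : SLn) := by
      intro d hd
      have h3 : (⟨d, hN ▸ le_normalizer hd⟩ : N) ∈ (Q : Subgroup N) := by
        rw [hQ]
        exact mem_subgroupOf.mpr hd
      have h4 := Subgroup.mem_centralizer_iff.mp h2 _ h3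
      exact (congrArg Subtype.val h4).symm
    have h3 : ¬ p ∣ orderOf (m : SLn) := by
      rwa [Subgroup.orderOf_coe]
    obtain ⟨c, hc⟩ := scalar_of_radical hn0 S.isPGroup' (sylow_ne_bot hn S) (sylow_core S) hcomm h3
    refine ⟨⟨m, mem_center_of_scalar hc⟩, ?_⟩
    apply Subtype.ext
    rfl

/-- The number of `p`-blocks of `SL_n(F)` in the defining characteristic. -/
theorem card_blocks (hn : 2 ≤ n) (hM : IsPModular p M) :
    Nat.card {B : Set (IrrCharacter SLn) // IsPBlock M B} = Nat.gcd (Fintype.card F - 1) n + 1 := by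
  classical
  haveI := hM.2.1.isPrime
  have hn0 : 0 < n := by omega
  haveI : Nonempty (Fin n) := ⟨⟨0, hn0⟩⟩
  letI : Fintype SLn := Fintype.ofFinite _
  haveI := Cfsg.Agent.Lib.Char.Ortho.finite_irrCharacter (G := SLn)
  letI : Fintype (IrrCharacter SLn) := Fintype.ofFinite _
  obtain ⟨S⟩ : Nonempty (Sylow p SLn) := inferInstance
  set D : Subgroup SLn := (S : Subgroup SLn) with hDdef
  set N := normalizer (D : Set SLn) with hN
  letI : Fintype N := Fintype.ofFinite _
  haveI := Cfsg.Agent.Lib.Char.Ortho.finite_irrCharacter (G := N)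
  letI : Fintype (IrrCharacter N) := Fintype.ofFinite _
  have hDN : D ≤ N := le_normalizer
  let Q : Sylow p N := S.subtype hDN
  have hQ : (Q : Subgroup N) = D.subgroupOf N := Sylow.coe_subtype S hDN
  have hQn : (Q : Subgroup N).Normal := by
    rw [hQ]
    exact normal_in_normalizer
  have hpD : IsPGroup p D := S.isPGroup'
  obtain ⟨hfm1, hfm2⟩ := Cfsg.Agent.Lib.Blocks.FMT.first_main (G := SLn) (M := M) (D := D) hM hpD
  -- every block of `N` has defect group `Q`
  have hall : ∀ b : Set (IrrCharacter N), IsPBlock M b → IsDefectGroup p M b (D.subgroupOf N) := by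
    intro b hb
    obtain ⟨Db, hDb⟩ := exists_isDefectGroup (p := p) hb
    have h1 : (Q : Subgroup N) ≤ Db := normal_le_defect hM hb hDb hQn Q.isPGroup'
    have h2 := Q.is_maximal' (isDefectGroup_isPGroup hDb) h1
    rw [← hQ, ← h2]
    exact hDb
  let Y := {b : Set (IrrCharacter N) // IsPBlock M b}
  have hf : ∀ y : Y, ∃ B : Set (IrrCharacter SLn), IsPBlock M B ∧ IsDefectGroup p M B D ∧ IsInducedBlock M N y.1 B :=
    fun y => hfm1 y.1 y.2 (hall y.1 y.2)
  choose f hf1 hf2 hf3 using hf
  -- the blocks
  have hv : (Nat.card SLn).factorization p ≠ 0 := by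
    intro h0
    have h1 := S.card_eq_multiplicity
    rw [h0, pow_zero] at h1
    apply sylow_ne_bot hn S
    exact (Subgroup.card_eq_one.mp h1)
  have hdefect : ∀ B : Set (IrrCharacter SLn), IsPBlock M B → IsDefectGroup p M B D →
      blockDefect p B = (Nat.card SLn).factorization p := by
    intro B hB hdg
    have h1 := card_eq_pow_blockDefect hM hB hdg
    have h2 := S.card_eq_multiplicity
    rw [← hDdef] at h2
    rw [h2] at h1
    exact (Nat.pow_right_injective hp.out.two_le h1).symm
  let Φ : Option Y → {B : Set (IrrCharacter SLn) // IsPBlock M B} := fun o =>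
    match o with
    | none => ⟨{StI hn0}, isPBlock_St hn0 hM⟩
    | some y => ⟨f y, hf1 y⟩
  have hSt0 : blockDefect p ({StI hn0} : Set (IrrCharacter SLn)) = 0 := blockDefect_singleton (StI_defect_zero hn0)
  have hΦ : Function.Bijective Φ := by
    constructor
    · rintro (_ | y) (_ | y') h
      · rfl
      · exfalso
        have h1 : ({StI hn0} : Set (IrrCharacter SLn)) = f y' := congrArg Subtype.val h
        have h2 := hdefect _ (hf1 y') (hf2 y')
        rw [← h1, hSt0] at h2
        exact hv h2.symm
      · exfalso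
        have h1 : f y = ({StI hn0} : Set (IrrCharacter SLn)) := congrArg Subtype.val h
        have h2 := hdefect _ (hf1 y) (hf2 y)
        rw [h1, hSt0] at h2
        exact hv h2.symm
      · have h1 : f y = f y' := congrArg Subtype.val h
        obtain ⟨b, -, huniq⟩ := hfm2 (f y) (hf1 y) (hf2 y)
        have h2 := huniq y.1 ⟨y.2, hall y.1 y.2, hf3 y⟩
        have h3 := huniq y'.1 ⟨y'.2, hall y'.1 y'.2, by rw [h1]; exact hf3 y'⟩
        congr 1
        exact Subtype.ext (h2.trans h3.symm)
    · rintro ⟨B, hB⟩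
      rcases defect_zero_or_full hn0 hM hB with h0 | hfull
      · exact ⟨none, Subtype.ext (block_unique hn0 hM (isPBlock_St hn0 hM) hB hSt0 h0)⟩
      · -- the block has a Sylow defect group, conjugate to `D`
        obtain ⟨D', hD'⟩ := exists_isDefectGroup (p := p) hB
        have hcard : Nat.card D' = p ^ (Nat.card SLn).factorization p := by
          rw [card_eq_pow_blockDefect hM hB hD', hfull]
        let S' : Sylow p SLn := Sylow.ofCard D' hcard
        obtain ⟨x, hx⟩ := MulAction.exists_smul_eq SLn S' S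
        have hD : IsDefectGroup p M B D := by
          have h1 := isDefectGroup_conj hD' x
          have h2 : D'.map (MulAut.conj x).toMonoidHom = D := by
            have h3 := congrArg (fun P : Sylow p SLn => (P : Subgroup SLn)) hx
            simp only [Sylow.coe_subgroup_smul] at h3
            rw [← hDdef] at h3
            rw [← h3]
            rfl
          rwa [h2] at h1
        obtain ⟨b, ⟨hb, -, hind⟩, -⟩ := hfm2 B hB hD
        refine ⟨some ⟨b, hb⟩, Subtype.ext ?_⟩
        -- uniqueness of the induced block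
        have hi := hf3 ⟨b, hb⟩
        obtain ⟨ξ, hξ⟩ := isPBlock_nonempty hb
        obtain ⟨χ, hχ⟩ := isPBlock_nonempty hB
        obtain ⟨χ', hχ'⟩ := isPBlock_nonempty (hf1 ⟨b, hb⟩)
        have h5 : SameBlock M (χ' : SLn → ℂ) (χ : SLn → ℂ) := by
          intro g
          have h6 := hind.2.2 ξ hξ χ hχ g
          have h7 := hi.2.2 ξ hξ χ' hχ' g
          have h8 := memLocalIdeal_sub_comm (memLocalIdeal_sub_trans (memLocalIdeal_sub_comm h7) h6)
          exact memLocalIdeal_sub_comm h8
        change f ⟨b, hb⟩ = B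
        rw [isPBlock_eq_blockOf (hf1 ⟨b, hb⟩) hχ', isPBlock_eq_blockOf hB hχ]
        exact (blockOf_eq_of_mem (M := M) (χ := χ') (ψ := χ) h5).symm
  rw [← Nat.card_congr (Equiv.ofBijective Φ hΦ), Finite.card_option]
  congr 1
  rw [card_blocks_eq hM Q hQn, card_kappa hn S N hN Q hQ, Cfsg.Agent.Lib.Classical.SLBasic.card_center_sl, Fintype.card_fin]

end Cfsg.Agent.Lib.DefBlocks.SLnData
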