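import Cfsg.Agent.Lib.Core.Basic
import Cfsg.Agent.Lib.Blocks.Inducing

/-!
# Radical `p`-subgroups of `SL_n(F)` in the defining characteristic

If `D ≠ 1` is a `p`-subgroup of `SL_n(F)` with `O_p(N(D)) = D` then the `p`-regular elements centralizing `D`
are scalar matrices.
-/

set_option autoImplicit false
set_option linter.unusedSectionVars false
set_option linter.unusedSimpArgs false
set_option linter.unusedVariables false
set_option linter.style.haveILetI false

namespace Cfsg.Agent.Lib.DefBlocks.Radical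

open Subgroup Matrix
open Cfsg

/-- A normal-in-`N(D)` type condition forces a `p`-subgroup into a radical `p`-subgroup. -/
theorem le_of_radical {G : Type*} [Group G] [Finite G] {p : ℕ} [Fact p.Prime] {D A : Subgroup G}
    (hD : IsPGroup p D) (hA : IsPGroup p A)
    (hcore : (pCore p (normalizer (D : Set G))).map (normalizer (D : Set G)).subtype = D)
    (hnorm : normalizer (D : Set G) ≤ normalizer (A : Set G)) : A ≤ D := by
  set N := normalizer (D : Set G) with hN
  have hDN : D ≤ N := fun d hd => by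
    rw [hN, mem_set_normalizer_iff]
    intro h
    constructor
    · intro hh
      exact D.mul_mem (D.mul_mem hd hh) (D.inv_mem hd)
    · intro hh
      have : h = d⁻¹ * (d * h * d⁻¹) * d := by group
      rw [this]
      exact D.mul_mem (D.mul_mem (D.inv_mem hd) hh) hd
  have h1 : ∀ a ∈ A, a ∈ N → a ∈ D := by
    intro a ha haN
    have hn : (A.subgroupOf N).Normal := by
      refine ⟨fun x hx g => ?_⟩
      rw [mem_subgroupOf] at hx ⊢
      have h2 := hnorm g.2
      rw [mem_set_normalizer_iff] at h2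
      exact (h2 _).mp hx
    have hp : IsPGroup p (A.subgroupOf N) := hA.comap_of_injective (N.subtype) (subtype_injective _) |>.of_equiv (by
      exact MulEquiv.refl _)
    have h3 := Cfsg.Agent.Lib.Core.Basic.le_pCore hn hp (x := ⟨a, haN⟩) (mem_subgroupOf.mpr ha)
    rw [← hcore]
    exact ⟨⟨a, haN⟩, h3, rfl⟩
  have hDA : ∀ d ∈ D, ∀ a ∈ A, d * a * d⁻¹ ∈ A := by
    intro d hd a ha
    have h2 := hnorm (hDN hd)
    rw [mem_set_normalizer_iff] at h2
    exact (h2 a).mp ha
  let R : Subgroup G :=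
    { carrier := {x | ∃ a ∈ A, ∃ d ∈ D, x = a * d}
      mul_mem' := by
        rintro _ _ ⟨a, ha, d, hd, rfl⟩ ⟨a', ha', d', hd', rfl⟩
        refine ⟨a * (d * a' * d⁻¹), A.mul_mem ha (hDA d hd a' ha'), d * d', D.mul_mem hd hd', ?_⟩
        group
      one_mem' := ⟨1, A.one_mem, 1, D.one_mem, by simp⟩
      inv_mem' := by
        rintro _ ⟨a, ha, d, hd, rfl⟩
        refine ⟨d⁻¹ * a⁻¹ * d⁻¹⁻¹, hDA _ (D.inv_mem hd) _ (A.inv_mem ha), d⁻¹, D.inv_mem hd, ?_⟩
        group }
  have hDR : D ≤ R := fun d hd => ⟨1, A.one_mem, d, hd, by simp⟩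
  have hAR : A ≤ R := fun a ha => ⟨a, ha, 1, D.one_mem, by simp⟩
  have hRsup : R ≤ A ⊔ D := by
    rintro _ ⟨a, ha, d, hd, rfl⟩
    exact mul_mem (mem_sup_left ha) (mem_sup_right hd)
  have hRp : IsPGroup p R :=
    (IsPGroup.to_sup_of_normal_left' hA hD (hDN.trans hnorm)).to_le hRsup
  by_contra hnot
  haveI := IsPGroup.isNilpotent hRp
  have hlt : D.subgroupOf R < ⊤ := by
    refine lt_top_iff_ne_top.mpr fun h => hnot fun a ha => ?_
    have h2 : (⟨a, hAR ha⟩ : R) ∈ D.subgroupOf R := by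
      rw [h]
      trivial
    exact mem_subgroupOf.mp h2
  have h3 := Group.normalizerCondition_of_isNilpotent (G := R) (D.subgroupOf R) hlt
  obtain ⟨r, hr, hrn⟩ := SetLike.exists_of_lt h3
  have hrN : (r : G) ∈ N := by
    rw [hN, mem_set_normalizer_iff]
    rw [mem_set_normalizer_iff] at hr
    intro h
    constructor
    · intro hh
      have h4 := (hr ⟨h, hDR hh⟩).mp (mem_subgroupOf.mpr hh)
      exact mem_subgroupOf.mp h4
    · intro hh
      have hhR : h ∈ R := by
        have : h = (r : G)⁻¹ * ((r : G) * h * (r : G)⁻¹) * r := by group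
        rw [this]
        exact R.mul_mem (R.mul_mem (R.inv_mem r.2) (hDR hh)) r.2
      have h4 := (hr ⟨h, hhR⟩).mpr (mem_subgroupOf.mpr hh)
      exact mem_subgroupOf.mp h4
  obtain ⟨a, ha, d, hd, hrad⟩ := r.2
  have haN : a ∈ N := by
    have : a = (r : G) * d⁻¹ := by rw [hrad]; group
    rw [this]
    exact N.mul_mem hrN (N.inv_mem (hDN hd))
  have haD := h1 a ha haN
  apply hrn
  rw [mem_subgroupOf, hrad]
  exact D.mul_mem haD hd

section Linear

variable {n : ℕ} {F : Type*} [Field F]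

local notation "SLn" => Matrix.SpecialLinearGroup (Fin n) F
local notation "V" => (Fin n → F)

/-- The action on column vectors. -/
def ac (a : SLn) (v : V) : V := (a : Matrix (Fin n) (Fin n) F) *ᵥ v

lemma ac_mul (a b : SLn) (v : V) : ac (a * b) v = ac a (ac b v) := by
  simp only [ac, Matrix.SpecialLinearGroup.coe_mul, Matrix.mulVec_mulVec]

lemma ac_one (v : V) : ac (1 : SLn) v = v := by
  simp only [ac, Matrix.SpecialLinearGroup.coe_one, Matrix.one_mulVec]

lemma ac_inv_ac (a : SLn) (v : V) : ac a⁻¹ (ac a v) = v := by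
  rw [← ac_mul, inv_mul_cancel, ac_one]

lemma ac_ac_inv (a : SLn) (v : V) : ac a (ac a⁻¹ v) = v := by
  rw [← ac_mul, mul_inv_cancel, ac_one]

lemma ac_add (a : SLn) (v w : V) : ac a (v + w) = ac a v + ac a w := Matrix.mulVec_add _ _ _

lemma ac_sub (a : SLn) (v w : V) : ac a (v - w) = ac a v - ac a w := Matrix.mulVec_sub _ _ _

lemma ac_smul (a : SLn) (c : F) (v : V) : ac a (c • v) = c • ac a v := Matrix.mulVec_smul _ _ _

lemma ext_ac {a b : SLn} (h : ∀ v, ac a v = ac b v) : a = b := by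
  apply Subtype.ext
  exact Matrix.mulVec_injective (funext h)

/-- The fixed vectors. -/
def Fix (D : Subgroup SLn) : Submodule F V where
  carrier := {v | ∀ d ∈ D, ac d v = v}
  add_mem' := fun ha hb d hd => by rw [ac_add, ha d hd, hb d hd]
  zero_mem' := fun d _ => Matrix.mulVec_zero _
  smul_mem' := fun c x hx d hd => by rw [ac_smul, hx d hd]

lemma mem_Fix {D : Subgroup SLn} {v : V} : v ∈ Fix D ↔ ∀ d ∈ D, ac d v = v := Iff.rfl

/-- The unipotent radical of the stabiliser of `W`, or rather its elements with determinant one. -/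
def Uone (W : Submodule F V) : Subgroup SLn where
  carrier := {y | (∀ v ∈ W, ac y v = v) ∧ ∀ v, ac y v - v ∈ W}
  mul_mem' := by
    rintro a b ⟨ha1, ha2⟩ ⟨hb1, hb2⟩
    refine ⟨fun v hv => by rw [ac_mul, hb1 v hv, ha1 v hv], fun v => ?_⟩
    have : ac (a * b) v - v = (ac a (ac b v) - ac b v) + (ac b v - v) := by
      rw [ac_mul]
      abel
    rw [this]
    exact W.add_mem (ha2 _) (hb2 _)
  one_mem' := ⟨fun v _ => ac_one v, fun v => by rw [ac_one, sub_self]; exact W.zero_mem⟩
  inv_mem' := by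
    rintro a ⟨ha1, ha2⟩
    refine ⟨fun v hv => ?_, fun v => ?_⟩
    · conv_lhs => rw [← ha1 v hv]
      exact ac_inv_ac a v
    · have h := ha2 (ac a⁻¹ v)
      rw [ac_ac_inv] at h
      have := W.neg_mem h
      rwa [neg_sub] at this

lemma mem_Uone {W : Submodule F V} {y : SLn} :
    y ∈ Uone W ↔ (∀ v ∈ W, ac y v = v) ∧ ∀ v, ac y v - v ∈ W := Iff.rfl

/-- `U₁` has exponent `p`. -/
lemma isPGroup_Uone (p : ℕ) [hp : Fact p.Prime] [CharP F p] (W : Submodule F V) : IsPGroup p (Uone W) := by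
  rintro ⟨y, hy1, hy2⟩
  refine ⟨1, ?_⟩
  apply Subtype.ext
  have h : ∀ m : ℕ, ∀ v, ac (y ^ m) v = v + (m : F) • (ac y v - v) := by
    intro m v
    induction m with
    | zero =>
      simp [ac_one]
    | succ m ih =>
      rw [pow_succ', ac_mul, ih, ac_add, ac_smul, hy1 _ (hy2 v)]
      push_cast
      rw [add_smul, one_smul]
      abel
  apply ext_ac
  intro v
  change ac (y ^ p ^ 1) v = ac 1 v
  rw [h, pow_one, CharP.cast_eq_zero, zero_smul, add_zero, ac_one]

lemma conj_mem_Uone {W : Submodule F V} {h y : SLn} (h1 : ∀ v ∈ W, ac h v ∈ W) (h2 : ∀ v ∈ W, ac h⁻¹ v ∈ W)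
    (hy : y ∈ Uone W) : h * y * h⁻¹ ∈ Uone W := by
  refine ⟨fun v hv => ?_, fun v => ?_⟩
  · rw [ac_mul, ac_mul, hy.1 _ (h2 v hv), ac_ac_inv]
  · have : ac (h * y * h⁻¹) v - v = ac h (ac y (ac h⁻¹ v) - ac h⁻¹ v) := by
      rw [ac_sub, ac_mul, ac_mul, ac_ac_inv]
    rw [this]
    exact h1 _ (hy.2 _)

lemma normalizer_stab {D : Subgroup SLn} {h : SLn} (hh : h ∈ normalizer (D : Set SLn)) {v : V} (hv : v ∈ Fix D) :
    ac h v ∈ Fix D := by
  intro d hd
  rw [mem_set_normalizer_iff''] at hh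
  have h1 : h⁻¹ * d * h ∈ D := (hh d).mp hd
  have e : d * h = h * (h⁻¹ * d * h) := by group
  rw [← ac_mul, e, ac_mul, hv _ h1]

lemma normalizer_le [Finite F] (D : Subgroup SLn) :
    normalizer (D : Set SLn) ≤ normalizer (Uone (Fix D) : Set SLn) := by
  intro h hh
  rw [mem_set_normalizer_iff]
  have hh' : h⁻¹ ∈ normalizer (D : Set SLn) := inv_mem hh
  intro y
  constructor
  · intro hy
    exact conj_mem_Uone (fun v hv => normalizer_stab hh hv) (fun v hv => normalizer_stab hh' hv) hy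
  · intro hy
    have e : y = h⁻¹ * (h * y * h⁻¹) * h⁻¹⁻¹ := by group
    rw [e]
    exact conj_mem_Uone (fun v hv => normalizer_stab hh' hv)
      (fun v hv => by rw [inv_inv]; exact normalizer_stab hh hv) hy

/-- The transvections attached to a vector and a functional. -/
noncomputable def ty (φ : Module.Dual F V) (w : V) (h : φ w = 0) : SLn :=
  ⟨LinearMap.toMatrix' (LinearMap.transvection φ w), by
    rw [LinearMap.det_toMatrix', LinearMap.transvection.det, h, add_zero]⟩

lemma ac_ty (φ : Module.Dual F V) (w : V) (h : φ w = 0) (x : V) : ac (ty φ w h) x = x + φ x • w := by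
  change LinearMap.toMatrix' (LinearMap.transvection φ w) *ᵥ x = _
  rw [LinearMap.toMatrix'_mulVec, LinearMap.transvection.apply]

lemma ty_mem {W : Submodule F V} {φ : Module.Dual F V} (hφ : ∀ v ∈ W, φ v = 0) {w : V} (hw : w ∈ W) :
    ty φ w (hφ w hw) ∈ Uone W := by
  refine ⟨fun v hv => ?_, fun v => ?_⟩
  · rw [ac_ty, hφ v hv, zero_smul, add_zero]
  · rw [ac_ty, add_sub_cancel_left]
    exact W.smul_mem _ hw

/-- An element commuting with `U₁` is a scalar plus a square zero part. -/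
theorem square_zero {W : Submodule F V} (hW0 : W ≠ ⊥) (hWt : W ≠ ⊤) {g : SLn} (hg : ∀ y ∈ Uone W, g * y = y * g) :
    ∃ c : F, (∀ v ∈ W, ac g v = c • v) ∧ ∀ x, ac g x - c • x ∈ W := by
  classical
  have key : ∀ (φ : Module.Dual F V) (hφ : ∀ v ∈ W, φ v = 0) (w : V) (hw : w ∈ W) (x : V),
      φ x • ac g w = φ (ac g x) • w := by
    intro φ hφ w hw x
    have h1 := hg _ (ty_mem hφ hw)
    have h2 := congrArg (fun a : SLn => ac a x) h1
    simp only [ac_mul, ac_ty, ac_add, ac_smul] at h2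
    exact add_left_cancel h2
  obtain ⟨v₀, hv₀, hv₀0⟩ := Submodule.exists_mem_ne_zero_of_ne_bot hW0
  obtain ⟨x₀, hx₀⟩ : ∃ x₀, x₀ ∉ W := by
    by_contra hcon
    push Not at hcon
    exact hWt (eq_top_iff.mpr fun x _ => hcon x)
  have hdual : ∀ x, x ∉ W → ∃ φ : Module.Dual F V, φ x ≠ 0 ∧ ∀ v ∈ W, φ v = 0 := by
    intro x hx
    obtain ⟨φ, h1, h2⟩ := Submodule.exists_dual_map_eq_bot_of_notMem hx inferInstance
    refine ⟨φ, h1, fun v hv => ?_⟩
    have h3 : φ v ∈ W.map φ := ⟨v, hv, rfl⟩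
    rw [h2] at h3
    exact h3
  obtain ⟨φ₀, hφ₀x, hφ₀⟩ := hdual x₀ hx₀
  set c : F := φ₀ (ac g x₀) / φ₀ x₀ with hc
  have h1 : ∀ v ∈ W, ac g v = c • v := by
    intro v hv
    have h2 := key φ₀ hφ₀ v hv x₀
    rw [hc, div_eq_inv_mul, mul_smul, ← h2, smul_smul, inv_mul_cancel₀ hφ₀x, one_smul]
  refine ⟨c, h1, fun x => ?_⟩
  by_contra hx
  obtain ⟨φ, hφx, hφ⟩ := hdual _ hx
  apply hφx
  have h2 := key φ hφ v₀ hv₀ x
  rw [h1 v₀ hv₀, smul_smul] at h2
  have h3 : φ x * c = φ (ac g x) := by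
    by_contra hne
    apply hv₀0
    have h4 : (φ x * c - φ (ac g x)) • v₀ = 0 := by
      rw [sub_smul, h2, sub_self]
    exact (smul_eq_zero.mp h4).resolve_left (sub_ne_zero.mpr hne)
  rw [map_sub, map_smul, smul_eq_mul, ← h3]
  ring

/-- A `p`-regular element centralizing a nontrivial radical `p`-subgroup of `SL_n(F)` is a scalar matrix. -/
theorem scalar_of_radical [Fintype F] {p : ℕ} [hp : Fact p.Prime] [CharP F p] (hn : 0 < n) {D : Subgroup SLn}
    (hD : IsPGroup p D) (hne : D ≠ ⊥)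
    (hcore : (pCore p (normalizer (D : Set SLn))).map (normalizer (D : Set SLn)).subtype = D) {g : SLn}
    (hg : ∀ d ∈ D, g * d = d * g) (hreg : ¬ p ∣ orderOf g) :
    ∃ c : F, (g : Matrix (Fin n) (Fin n) F) = c • 1 := by
  classical
  haveI : Nonempty (Fin n) := ⟨⟨0, hn⟩⟩
  have hW0 : Fix D ≠ ⊥ := by
    letI act : MulAction D V :=
      { smul := fun d v => ac (d : SLn) v
        one_smul := fun v => ac_one v
        mul_smul := fun a b v => ac_mul (a : SLn) b v }
    have htp : ∀ a : V, p • a = 0 := by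
      intro a
      rw [← Nat.cast_smul_eq_nsmul F, CharP.cast_eq_zero, zero_smul]
    have hcard : p ∣ Nat.card V := by
      have h1 : addOrderOf (1 : V) = p := by
        apply addOrderOf_eq_prime (htp _)
        exact one_ne_zero
      rw [← h1]
      exact addOrderOf_dvd_natCard _
    have hfix : (0 : V) ∈ MulAction.fixedPoints D V := fun d => (Matrix.mulVec_zero _ : ac (d : SLn) (0 : V) = 0)
    obtain ⟨b, hb, hb0⟩ := hD.exists_fixed_point_of_prime_dvd_card_of_fixed_point V hcard hfix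
    intro h
    have hmem : b ∈ Fix D := fun d hd => hb ⟨d, hd⟩
    rw [h] at hmem
    exact hb0 ((Submodule.mem_bot F).mp hmem).symm
  have hWt : Fix D ≠ ⊤ := by
    intro h
    apply hne
    rw [eq_bot_iff]
    intro d hd
    rw [mem_bot]
    apply ext_ac
    intro v
    rw [ac_one]
    have : v ∈ Fix D := by
      rw [h]
      trivial
    exact this d hd
  have hle : Uone (Fix D) ≤ D := le_of_radical hD (isPGroup_Uone p _) hcore (normalizer_le D)
  obtain ⟨c, hc1, hc2⟩ := square_zero hW0 hWt (fun y hy => hg y (hle hy))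
  -- the square zero part
  set N : Matrix (Fin n) (Fin n) F := (g : Matrix (Fin n) (Fin n) F) - c • 1 with hN
  have hNv : ∀ x, N *ᵥ x = ac g x - c • x := by
    intro x
    rw [hN, Matrix.sub_mulVec, Matrix.smul_mulVec, Matrix.one_mulVec]
    rfl
  have hNN : N * N = 0 := by
    apply Matrix.mulVec_injective
    funext x
    rw [← Matrix.mulVec_mulVec, hNv (N *ᵥ x), Matrix.zero_mulVec, hNv x]
    rw [hc1 _ (hc2 x), sub_self]
  have hgN : (g : Matrix (Fin n) (Fin n) F) = c • 1 + N := by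
    rw [hN]
    abel
  haveI : CharP (Matrix (Fin n) (Fin n) F) p := inferInstance
  have hcomm : Commute (c • (1 : Matrix (Fin n) (Fin n) F)) N := (Commute.one_left N).smul_left c
  have hNp : N ^ p = 0 := by
    have h2 : 2 ≤ p := hp.out.two_le
    obtain ⟨m, rfl⟩ : ∃ m, p = 2 + m := ⟨p - 2, by omega⟩
    rw [pow_add, pow_two, hNN, zero_mul]
  have hgp : ((g ^ p : SLn) : Matrix (Fin n) (Fin n) F) = (c ^ p) • 1 := by
    rw [Matrix.SpecialLinearGroup.coe_pow, hgN, add_pow_char_of_commute _ hcomm, hNp, add_zero, smul_pow, one_pow]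
  have hpos : 0 < orderOf g := orderOf_pos g
  have hcop : Nat.Coprime p (orderOf g) := (Nat.Prime.coprime_iff_not_dvd hp.out).mpr hreg
  by_cases hm1 : orderOf g = 1
  · refine ⟨1, ?_⟩
    rw [orderOf_eq_one_iff] at hm1
    rw [hm1, one_smul, Matrix.SpecialLinearGroup.coe_one]
  · have hm2 : 1 < orderOf g := by omega
    obtain ⟨a, -, ha⟩ := Nat.exists_mul_mod_eq_one_of_coprime hcop hm2
    have h3 : g ^ (p * a) = g := by
      rw [← pow_mod_orderOf, ha, pow_one]
    refine ⟨(c ^ p) ^ a, ?_⟩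
    rw [← h3, pow_mul, Matrix.SpecialLinearGroup.coe_pow, hgp, smul_pow, one_pow]

/-- A scalar element is central. -/
lemma centralizer_eq_top_of_scalar {g : SLn} {c : F} (h : (g : Matrix (Fin n) (Fin n) F) = c • 1) :
    centralizer ({g} : Set SLn) = ⊤ := by
  rw [eq_top_iff]
  intro x _
  rw [mem_centralizer_iff]
  intro y hy
  rw [Set.mem_singleton_iff] at hy
  subst hy
  apply Subtype.ext
  rw [Matrix.SpecialLinearGroup.coe_mul, Matrix.SpecialLinearGroup.coe_mul, h]
  simp

end Linear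

end Cfsg.Agent.Lib.DefBlocks.Radical
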