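import Cfsg.Agent.Lib.DefBlocks.Unique
import Cfsg.Agent.Lib.DefBlocks.Radical
import Cfsg.Agent.Lib.Classical.Flags.PSLn
import Cfsg.Agent.Lib.BlockT.Inflate2
import Cfsg.Agent.Lib.BlockP.Defect

/-!
# The `p`-blocks of `SL_n(F)` in the defining characteristic: defect zero or full defect
-/

set_option autoImplicit false
set_option linter.unusedSectionVars false
set_option linter.unusedSimpArgs false
set_option linter.unusedVariables false
set_option linter.style.haveILetI false

namespace Cfsg.Agent.Lib.DefBlocks.SLnData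

open Cfsg MonoidAlgebra Subgroup
open Cfsg.Agent.Lib.Blocks.Local Cfsg.Agent.Lib.Blocks.Central
open Cfsg.Agent.Lib.Blocks.Defect2
open Cfsg.Agent.Lib.KS71.UniTri
open Cfsg.Agent.Lib.DefBlocks.Radical

section General

variable {G : Type*} [Group G] [Finite G] {p : ℕ} {M : Ideal AlgInt}

/-- Members of a block of defect zero have defect zero. -/
theorem not_dvd_of_blockDefect_eq_zero (hp : p.Prime) {B : Set (IrrCharacter G)} {χ : IrrCharacter G} (hχ : χ ∈ B)
    (h : blockDefect p B = 0) : ¬ p ∣ Nat.card G / charDegree (χ : G → ℂ) := by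
  obtain ⟨m, hm⟩ := Cfsg.Agent.Lib.Char.Degree.charDegree_dvd_card χ.2
  have hdpos := Cfsg.Agent.Lib.Char.Degree.charDegree_pos χ.2
  have hmd : Nat.card G / charDegree (χ : G → ℂ) = m := by
    rw [hm]
    exact Nat.mul_div_cancel_left _ hdpos
  rw [hmd]
  have hG : Nat.card G ≠ 0 := Nat.card_pos.ne'
  have hm0 : m ≠ 0 := by
    rintro rfl
    rw [mul_zero] at hm
    exact hG hm
  have h1 : sInf ((fun χ : IrrCharacter G => (charDegree (χ : G → ℂ)).factorization p) '' B) ≤
      (charDegree (χ : G → ℂ)).factorization p := Nat.sInf_le ⟨χ, hχ, rfl⟩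
  rw [blockDefect, Nat.sub_eq_zero_iff_le] at h
  have h2 : (Nat.card G).factorization p ≤ (charDegree (χ : G → ℂ)).factorization p := h.trans h1
  rw [hm, Nat.factorization_mul hdpos.ne' hm0, Finsupp.add_apply] at h2
  have h3 : m.factorization p = 0 := by omega
  intro hd
  have := (hp.dvd_iff_one_le_factorization hm0).mp hd
  omega

/-- A block consisting of one character of defect zero has defect zero. -/
theorem blockDefect_singleton {χ : IrrCharacter G} (h : ¬ p ∣ Nat.card G / charDegree (χ : G → ℂ)) :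
    blockDefect p ({χ} : Set (IrrCharacter G)) = 0 := by
  obtain ⟨m, hm⟩ := Cfsg.Agent.Lib.Char.Degree.charDegree_dvd_card χ.2
  have hdpos := Cfsg.Agent.Lib.Char.Degree.charDegree_pos χ.2
  have hmd : Nat.card G / charDegree (χ : G → ℂ) = m := by
    rw [hm]
    exact Nat.mul_div_cancel_left _ hdpos
  rw [hmd] at h
  have hG : Nat.card G ≠ 0 := Nat.card_pos.ne'
  have hm0 : m ≠ 0 := by
    rintro rfl
    rw [mul_zero] at hm
    exact hG hm
  rw [blockDefect, Set.image_singleton, csInf_singleton, hm, Nat.factorization_mul hdpos.ne' hm0, Finsupp.add_apply,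
    Nat.factorization_eq_zero_of_not_dvd h]
  simp

end General

section MainS

variable {F : Type*} [Field F] [Fintype F] {n : ℕ} {p : ℕ} [hp : Fact p.Prime] [CharP F p] {M : Ideal AlgInt}

local notation "SLn" => Matrix.SpecialLinearGroup (Fin n) F

/-- Every block of `SL_n(F)` in the defining characteristic has defect zero or full defect. -/
theorem defect_zero_or_full (hn : 0 < n) (hM : IsPModular p M) {B : Set (IrrCharacter SLn)} (hB : IsPBlock M B) :
    blockDefect p B = 0 ∨ blockDefect p B = (Nat.card SLn).factorization p := by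
  classical
  haveI := hM.2.1.isPrime
  letI : Fintype SLn := Fintype.ofFinite _
  haveI := Cfsg.Agent.Lib.Char.Ortho.finite_irrCharacter (G := SLn)
  letI : Fintype (IrrCharacter SLn) := Fintype.ofFinite _
  obtain ⟨g, hg⟩ := exists_isDefectClass hB
  obtain ⟨S⟩ : Nonempty (Sylow p (centralizer ({g} : Set SLn))) := inferInstance
  set D : Subgroup SLn := (S : Subgroup (centralizer ({g} : Set SLn))).map (centralizer ({g} : Set SLn)).subtype with hDdef
  have hD : IsDefectGroup p M B D := ⟨g, hg, S, rfl⟩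
  have hcore := Cfsg.Agent.Lib.Blocks.Inducing.defect_eq_pCore_normalizer hM hB hD
  have hpD : IsPGroup p D := isDefectGroup_isPGroup hD
  have hreg : ¬ p ∣ orderOf g := fun h => hg.2.1 (by
    rw [Cfsg.Agent.Lib.BlockT.Inflate2.blockCoeff_eq_zero hM hB h]
    exact memLocalIdeal_zero)
  have hcomm : ∀ d ∈ D, g * d = d * g := by
    rintro _ ⟨x, hx, rfl⟩
    have h1 := x.2
    rw [mem_centralizer_iff] at h1
    exact h1 g rfl
  have hdef := Cfsg.Agent.Lib.BlockP.Defect.factorization_centralizer_eq hM hB hg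
  by_cases hD1 : D = ⊥
  · left
    rw [← hdef]
    have h1 : (S : Subgroup (centralizer ({g} : Set SLn))) = ⊥ := by
      rw [hDdef] at hD1
      exact (map_eq_bot_iff_of_injective _ (subtype_injective _)).mp hD1
    have h2 := S.card_eq_multiplicity
    rw [h1, card_bot] at h2
    by_contra hne
    have h3 : 1 < p ^ (Nat.card (centralizer ({g} : Set SLn))).factorization p :=
      Nat.one_lt_pow hne hp.out.one_lt
    omega
  · right
    obtain ⟨c, hc⟩ := scalar_of_radical hn hpD hD1 hcore hcomm hreg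
    rw [← hdef, centralizer_eq_top_of_scalar hc, card_top]

/-- The Steinberg character of `SL_n(F)`. -/
noncomputable def StI (hn : 0 < n) : IrrCharacter SLn :=
  haveI : NeZero n := ⟨hn.ne'⟩
  ⟨fun s => Cfsg.unipotentCharacterGL n F (fun _ => 1) (Cfsg.Agent.Lib.Classical.Flags.incSL n F s),
    Cfsg.Agent.Lib.Classical.Flags.St_SL_irr n⟩

omit hp in
theorem charDegree_StI (hn : 0 < n) : charDegree ((StI hn : IrrCharacter SLn) : SLn → ℂ) = (Fintype.card F) ^ (n * (n - 1) / 2) := by
  classical
  letI : Fintype SLn := Fintype.ofFinite _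
  haveI := Cfsg.Agent.Lib.Char.Ortho.finite_irrCharacter (G := SLn)
  letI : Fintype (IrrCharacter SLn) := Fintype.ofFinite _
  have h1 := Cfsg.Agent.Lib.Blocks.Heights.irr_one_eq (StI (F := F) hn)
  have h2 : ((StI (F := F) hn : IrrCharacter SLn) : SLn → ℂ) 1 = ((Fintype.card F : ℕ) : ℂ) ^ n.choose 2 := by
    have := Cfsg.Agent.Lib.Classical.Flags.St_one (F := F) n
    rw [← this]
    change Cfsg.unipotentCharacterGL n F (fun _ => 1) (Cfsg.Agent.Lib.Classical.Flags.incSL n F 1) = _
    rw [map_one]
  rw [h2] at h1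
  have h3 : ((Fintype.card F ^ n.choose 2 : ℕ) : ℂ) = (charDegree ((StI (F := F) hn : IrrCharacter SLn) : SLn → ℂ) : ℂ) := by
    push_cast
    exact h1
  rw [← Nat.choose_two_right]
  exact (Nat.cast_injective h3).symm

theorem StI_defect_zero (hn : 0 < n) :
    ¬ p ∣ Nat.card SLn / charDegree ((StI hn : IrrCharacter SLn) : SLn → ℂ) := by
  classical
  letI : Fintype SLn := Fintype.ofFinite _
  obtain ⟨f, -, hF⟩ := FiniteField.card F p
  have h1 := (U n F).card_mul_index
  rw [card_U, ← charDegree_StI hn] at h1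
  have hpos := Cfsg.Agent.Lib.Char.Degree.charDegree_pos (StI (F := F) hn).2
  rw [← h1, Nat.mul_div_cancel_left _ hpos]
  exact not_dvd_index hp.out hF f.pos hn

/-- The block of the Steinberg character. -/
theorem isPBlock_St (hn : 0 < n) (hM : IsPModular p M) : IsPBlock M ({StI hn} : Set (IrrCharacter SLn)) := by
  classical
  haveI := hM.2.1.isPrime
  letI : Fintype SLn := Fintype.ofFinite _
  haveI := Cfsg.Agent.Lib.Char.Ortho.finite_irrCharacter (G := SLn)
  letI : Fintype (IrrCharacter SLn) := Fintype.ofFinite _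
  exact ⟨StI hn, ((Cfsg.Agent.Lib.Blocks.Inducing.blockOf_eq_singleton_iff hM (StI hn)).mp (StI_defect_zero hn)).symm⟩

/-- Any two blocks of defect zero coincide. -/
theorem block_unique (hn : 0 < n) (hM : IsPModular p M) {B B' : Set (IrrCharacter SLn)} (hB : IsPBlock M B)
    (hB' : IsPBlock M B') (h : blockDefect p B = 0) (h' : blockDefect p B' = 0) : B = B' := by
  classical
  haveI := hM.2.1.isPrime
  letI : Fintype SLn := Fintype.ofFinite _
  obtain ⟨χ, hχ⟩ := isPBlock_nonempty hB
  obtain ⟨ψ, hψ⟩ := isPBlock_nonempty hB'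
  have h1 := not_dvd_of_blockDefect_eq_zero hM.1 hχ h
  have h2 := not_dvd_of_blockDefect_eq_zero hM.1 hψ h'
  have h3 := sameBlock_of_defect_zero hn hM χ ψ h1 h2
  rw [isPBlock_eq_blockOf hB hχ, isPBlock_eq_blockOf hB' hψ]
  exact (blockOf_eq_of_mem (M := M) (χ := χ) (ψ := ψ) h3).symm

end MainS

end Cfsg.Agent.Lib.DefBlocks.SLnData
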