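import Cfsg.Agent.Lib.BlockAlg.GroupAlg

/-!
# The Hecke-type argument modulo `p`

Let `G` be a finite group with a `p`-subgroup `U`, a subgroup `T` normalising `U` and an element `n₀`,
such that `U ∩ aUa⁻¹` is nontrivial for `a` off the big cell `U T n₀ U`.  Given a central idempotent `e` of
the group algebra over a field of characteristic `p`, which is contained in the ideal generated by the
norm element of `U` (through a central element `Z`), the right `U`-invariants of `e kG` carry a bijective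
operator `A : v ↦ v n₀ N_U`.  With rank one data this forces `T` to act trivially on the invariants, and
the scalar by which a class sum acts on `e` is the number of elements `g` of the class with `g n₀` in the
big cell.
-/

set_option autoImplicit false
set_option linter.unusedSectionVars false
set_option linter.unusedSimpArgs false
set_option linter.unusedVariables false
set_option linter.style.haveILetI false

namespace Cfsg.Agent.Lib.DefBlocks

open MonoidAlgebra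
open Cfsg.Agent.Lib.BlockAlg

universe u v w

variable {G : Type u} [Group G] [Fintype G] {k : Type v} [Field k]

local notation "kG" => MonoidAlgebra k G
local notation "δ" => MonoidAlgebra.of k G

open scoped _root_.Classical in
/-- The norm element of a subgroup. -/
noncomputable def nrm (k : Type v) [Field k] (U : Subgroup G) : MonoidAlgebra k G :=
  ∑ u : U, MonoidAlgebra.of k G (u : G)

lemma nrm_eq_sum (U : Subgroup G) [Fintype U] : nrm k U = ∑ u : U, δ (u : G) := by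
  rw [nrm]
  congr!

lemma of_mul_nrm {U : Subgroup G} {u : G} (hu : u ∈ U) : δ u * nrm k U = nrm k U := by
  classical
  rw [nrm, Finset.mul_sum]
  refine Fintype.sum_equiv (Equiv.mulLeft (⟨u, hu⟩ : U)) _ _ fun x => ?_
  simp [map_mul]

lemma nrm_mul_of {U : Subgroup G} {u : G} (hu : u ∈ U) : nrm k U * δ u = nrm k U := by
  classical
  rw [nrm, Finset.sum_mul]
  refine Fintype.sum_equiv (Equiv.mulRight (⟨u, hu⟩ : U)) _ _ fun x => ?_
  simp [map_mul]

lemma of_mul_of_inv (g : G) : (δ g : kG) * δ g⁻¹ = 1 := by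
  rw [← map_mul, mul_inv_cancel, map_one]

lemma of_inv_mul_of (g : G) : (δ g⁻¹ : kG) * δ g = 1 := by
  rw [← map_mul, inv_mul_cancel, map_one]

/-- Conjugation invariance of the norm element. -/
lemma nrm_conj {U : Subgroup G} {g : G} (h1 : ∀ u ∈ U, g * u * g⁻¹ ∈ U) (h2 : ∀ u ∈ U, g⁻¹ * u * g ∈ U) :
    δ g * nrm k U = nrm k U * δ g := by
  classical
  rw [nrm, Finset.mul_sum, Finset.sum_mul]
  let φ : U ≃ U :=
    { toFun := fun u => ⟨g * u * g⁻¹, h1 u u.2⟩
      invFun := fun u => ⟨g⁻¹ * u * g, h2 u u.2⟩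
      left_inv := fun u => by
        apply Subtype.ext
        simp [mul_assoc]
      right_inv := fun u => by
        apply Subtype.ext
        simp [mul_assoc] }
  refine Fintype.sum_equiv φ _ _ fun x => ?_
  rw [← map_mul, ← map_mul]
  congr 1
  simp [φ]

/-- Coset decomposition of a sum over a group. -/
lemma sum_coset {H : Type*} [Group H] [Fintype H] (C : Subgroup H) [Fintype C] [Fintype (H ⧸ C)]
    {A : Type*} [AddCommMonoid A] (f : H → A) :
    ∑ g : H, f g = ∑ q : H ⧸ C, ∑ c : C, f (q.out * (c : H)) := by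
  classical
  rw [← Fintype.sum_prod_type']
  symm
  refine Fintype.sum_bijective (fun p : (H ⧸ C) × C => p.1.out * (p.2 : H)) ?_ _ _ fun _ => rfl
  constructor
  · rintro ⟨q, c⟩ ⟨q', c'⟩ h
    have h' : q.out * (c : H) = q'.out * (c' : H) := h
    have hq : q = q' := by
      have h1 : ((q.out * (c : H) : H) : H ⧸ C) = q := by
        rw [QuotientGroup.mk_mul_of_mem _ c.2]
        exact QuotientGroup.out_eq' q
      have h2 : ((q'.out * (c' : H) : H) : H ⧸ C) = q' := by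
        rw [QuotientGroup.mk_mul_of_mem _ c'.2]
        exact QuotientGroup.out_eq' q'
      rw [← h1, ← h2, h']
    subst hq
    have := mul_left_cancel h'
    exact Prod.ext rfl (Subtype.ext this)
  · intro g
    have hm : ((g : H ⧸ C)).out⁻¹ * g ∈ C := by
      apply QuotientGroup.eq.mp
      exact QuotientGroup.out_eq' _
    refine ⟨((g : H ⧸ C), ⟨_, hm⟩), ?_⟩
    simp

/-- A right-invariant element of the group algebra is a multiple of the norm element. -/
lemma exists_eq_mul_nrm {U : Subgroup G} {v : kG} (hv : ∀ u ∈ U, v * δ u = v) :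
    ∃ y : kG, v = y * nrm k U := by
  classical
  have hc : ∀ (g u : G), u ∈ U → v.coeff (g * u) = v.coeff g := by
    intro g u hu
    have h := congrArg (fun z : kG => z.coeff (g * u)) (hv u hu)
    simp only [MonoidAlgebra.of_apply, coeff_mul_single_apply, mul_one] at h
    simpa using h.symm
  letI : Fintype (G ⧸ U) := Fintype.ofFinite _
  refine ⟨∑ q : G ⧸ U, v.coeff q.out • δ q.out, ?_⟩
  conv_lhs => rw [eq_sum_single v, sum_coset U]
  rw [nrm, Finset.sum_mul]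
  refine Finset.sum_congr rfl fun q _ => ?_
  rw [smul_mul_assoc, Finset.mul_sum, Finset.smul_sum]
  refine Finset.sum_congr rfl fun c _ => ?_
  rw [hc _ _ c.2, ← map_mul, MonoidAlgebra.of_apply]

section Char

variable {p : ℕ} [hp : Fact p.Prime] [CharP k p]

/-- Sums of functions invariant under a `p`-singular left translation vanish. -/
lemma sum_eq_zero_of_inv {A : Type w} [AddCommGroup A] [Module k A] {H : Type*} [Group H] [Fintype H]
    {x : H} (hx : p ∣ orderOf x) (f : H → A) (hf : ∀ y, f (x * y) = f y) : ∑ y, f y = 0 := by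
  classical
  let C : Subgroup H := Subgroup.zpowers x
  letI : Fintype (H ⧸ C) := Fintype.ofFinite _
  have hinv : ∀ y : H, ∀ c ∈ C, f (c * y) = f y := by
    intro y c hc
    obtain ⟨m, rfl⟩ := Subgroup.mem_zpowers_iff.mp hc
    have h1 : ∀ (m : ℕ) (y : H), f (x ^ m * y) = f y := by
      intro m
      induction m with
      | zero => simp
      | succ m ih =>
        intro y
        rw [pow_succ, mul_assoc, ih, hf]
    have h2 : ∀ (m : ℕ) (y : H), f ((x ^ m)⁻¹ * y) = f y := by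
      intro m y
      rw [← h1 m ((x ^ m)⁻¹ * y)]
      simp
    cases m with
    | ofNat m => simpa using h1 m y
    | negSucc m =>
      rw [zpow_negSucc]
      exact h2 _ y
  have h0 : ∑ y : H, f y = ∑ y : H, f y⁻¹ := (Fintype.sum_equiv (Equiv.inv H) _ _ fun y => by simp)
  rw [h0, sum_coset C]
  refine Finset.sum_eq_zero fun q _ => ?_
  have h1 : ∀ c : C, f ((q.out * (c : H))⁻¹) = f (q.out)⁻¹ := by
    intro c
    rw [mul_inv_rev]
    exact hinv _ _ (C.inv_mem c.2)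
  rw [Finset.sum_congr rfl fun c _ => h1 c, Finset.sum_const, Finset.card_univ]
  have h2 : p ∣ Fintype.card C := by
    rw [← Nat.card_eq_fintype_card, Nat.card_zpowers]
    exact hx
  obtain ⟨m, hm⟩ := h2
  rw [hm, mul_smul]
  have h3 : ∀ a : A, p • a = 0 := by
    intro a
    rw [← Nat.cast_smul_eq_nsmul k, CharP.cast_eq_zero, zero_smul]
  rw [h3]

variable {U T : Subgroup G} {n₀ : G}

/-- The big cell. -/
def Cell (U T : Subgroup G) (n₀ : G) (a : G) : Prop :=
  ∃ u₁ ∈ U, ∃ t ∈ T, ∃ u₂ ∈ U, a = u₁ * t * n₀ * u₂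

/-- The right invariants in `e kG`. -/
def Nb (U : Subgroup G) (e : kG) : Submodule k kG where
  carrier := {v | e * v = v ∧ ∀ u ∈ U, v * δ u = v}
  add_mem' := fun {a b} ha hb => ⟨by rw [mul_add, ha.1, hb.1], fun u hu => by
    rw [add_mul, ha.2 u hu, hb.2 u hu]⟩
  zero_mem' := ⟨mul_zero _, fun u _ => zero_mul _⟩
  smul_mem' := fun c x hx => ⟨by rw [mul_smul_comm, hx.1], fun u hu => by
    rw [smul_mul_assoc, hx.2 u hu]⟩

lemma mem_Nb {e v : kG} : v ∈ Nb U e ↔ e * v = v ∧ ∀ u ∈ U, v * δ u = v := Iff.rfl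

/-- `v n₀ N_U`. -/
noncomputable def Aop (U : Subgroup G) (n₀ : G) : kG →ₗ[k] kG :=
  LinearMap.mulRight k (δ n₀ * nrm k U)

lemma Aop_apply (v : kG) : Aop U n₀ v = v * (δ n₀ * nrm k U) := rfl

lemma Aop_mem {e v : kG} (hv : v ∈ Nb U e) : Aop U n₀ v ∈ Nb U e := by
  refine ⟨?_, fun u hu => ?_⟩
  · rw [Aop_apply, ← mul_assoc, hv.1]
  · rw [Aop_apply, mul_assoc, mul_assoc, nrm_mul_of hu]

lemma mul_T_mem (hT : ∀ t ∈ T, ∀ u ∈ U, t * u * t⁻¹ ∈ U) {e v : kG} (hv : v ∈ Nb U e) {t : G} (ht : t ∈ T) :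
    v * δ t ∈ Nb U e := by
  refine ⟨?_, fun u hu => ?_⟩
  · rw [← mul_assoc, hv.1]
  · have e1 : (δ t : kG) * δ u = δ (t * u * t⁻¹) * δ t := by
      rw [← map_mul, ← map_mul]
      congr 1
      group
    rw [mul_assoc, e1, ← mul_assoc, hv.2 _ (hT t ht u hu)]

/-- Evaluation of `v a N_U` in the big cell. -/
lemma eval_cell {e v : kG} (hv : v ∈ Nb U e) {u₁ t u₂ : G} (hu₁ : u₁ ∈ U) (hu₂ : u₂ ∈ U) :
    v * δ (u₁ * t * n₀ * u₂) * nrm k U = Aop U n₀ (v * δ t) := by
  rw [Aop_apply, map_mul, map_mul, map_mul]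
  calc v * (δ u₁ * δ t * δ n₀ * δ u₂) * nrm k U = (v * δ u₁) * δ t * δ n₀ * (δ u₂ * nrm k U) := by
        simp only [mul_assoc]
    _ = _ := by
        rw [hv.2 _ hu₁, of_mul_nrm hu₂]
        simp only [mul_assoc]

/-- Vanishing of `v a N_U` off the big cell. -/
lemma eval_noncell (hU : IsPGroup p U) {e v : kG} (hv : v ∈ Nb U e) {a x : G} (hx : x ∈ U) (hx1 : x ≠ 1)
    (ha : a * x * a⁻¹ ∈ U) : v * δ a * nrm k U = 0 := by
  classical
  rw [nrm, Finset.mul_sum]
  let x' : U := ⟨x, hx⟩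
  have hord : p ∣ orderOf x' := by
    obtain ⟨m, hm⟩ := (IsPGroup.iff_orderOf.mp hU) x'
    rw [hm]
    refine dvd_pow_self p ?_
    rintro rfl
    rw [pow_zero, orderOf_eq_one_iff] at hm
    exact hx1 (congrArg Subtype.val hm)
  refine sum_eq_zero_of_inv (k := k) (p := p) hord _ fun y => ?_
  have e1 : (δ a : kG) * δ x = δ (a * x * a⁻¹) * δ a := by
    rw [← map_mul, ← map_mul]
    congr 1
    group
  change v * δ a * δ (x * (y : G)) = v * δ a * δ (y : G)
  rw [map_mul, ← mul_assoc, mul_assoc v, e1, ← mul_assoc v, hv.2 _ ha]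

/-- The hypothesis on the big cell. -/
def CellHyp (U T : Subgroup G) (n₀ : G) : Prop :=
  ∀ a : G, Cell U T n₀ a ∨ ∃ x ∈ U, x ≠ 1 ∧ a * x * a⁻¹ ∈ U

/-- Surjectivity of `A` on the invariants. -/
lemma Aop_surj (hU : IsPGroup p U) (hT : ∀ t ∈ T, ∀ u ∈ U, t * u * t⁻¹ ∈ U) (hcell : CellHyp U T n₀)
    {e : kG} (hec : ∀ y : kG, y * e = e * y) (hee : e * e = e) {g₀ : G} {c : k} (hc : c ≠ 0)
    (hZ : (∑ h : G, δ h * δ g₀ * nrm k U * δ h⁻¹) * e = c • e) {v : kG} (hv : v ∈ Nb U e) :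
    ∃ w ∈ Nb U e, Aop U n₀ w = v := by
  classical
  obtain ⟨y, hy⟩ := exists_eq_mul_nrm hv.2
  let S : Submodule k kG := (Nb U e).map (Aop U n₀)
  -- the elements `w_h`
  let w : G → kG := fun h => y * δ h * δ g₀ * nrm k U * e
  have hw : ∀ h, w h ∈ Nb U e := by
    intro h
    refine ⟨?_, fun u hu => ?_⟩
    · change e * (y * δ h * δ g₀ * nrm k U * e) = y * δ h * δ g₀ * nrm k U * e
      rw [← mul_assoc e, ← hec (y * δ h * δ g₀ * nrm k U), mul_assoc _ e e, hee]
    · change y * δ h * δ g₀ * nrm k U * e * δ u = y * δ h * δ g₀ * nrm k U * e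
      rw [mul_assoc _ e, ← hec (δ u), ← mul_assoc, mul_assoc _ (nrm k U), nrm_mul_of hu]
  have hterm : ∀ h : G, w h * δ h⁻¹ * nrm k U ∈ S := by
    intro h
    rcases hcell h⁻¹ with ⟨u₁, hu₁, t, ht, u₂, hu₂, hh⟩ | ⟨x, hx, hx1, hax⟩
    · rw [hh, eval_cell (hw h) hu₁ hu₂]
      exact ⟨_, mul_T_mem hT (hw h) ht, rfl⟩
    · rw [eval_noncell hU (hw h) hx hx1 hax]
      exact S.zero_mem
  have hsum : c • v = ∑ h : G, w h * δ h⁻¹ * nrm k U := by
    have e1 : v = y * (e * nrm k U) := by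
      rw [← hec (nrm k U), ← mul_assoc, ← hy]
      have : v * e = v := by rw [hec v, hv.1]
      rw [this]
    have e2 : c • (e * nrm k U) = ∑ h : G, δ h * δ g₀ * nrm k U * δ h⁻¹ * e * nrm k U := by
      rw [← smul_mul_assoc, ← hZ, Finset.sum_mul, Finset.sum_mul]
    rw [e1, ← mul_smul_comm, e2, Finset.mul_sum]
    refine Finset.sum_congr rfl fun h _ => ?_
    change y * (δ h * δ g₀ * nrm k U * δ h⁻¹ * e * nrm k U) = y * δ h * δ g₀ * nrm k U * e * δ h⁻¹ * nrm k U
    rw [mul_assoc (δ h * δ g₀ * nrm k U) (δ h⁻¹) e, hec (δ h⁻¹)]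
    simp only [mul_assoc]
  have hvS : v ∈ S := by
    have h1 : c • v ∈ S := by
      rw [hsum]
      exact S.sum_mem fun h _ => hterm h
    have h2 := S.smul_mem c⁻¹ h1
    rwa [smul_smul, inv_mul_cancel₀ hc, one_smul] at h2
  obtain ⟨w', hw', he⟩ := hvS
  exact ⟨w', hw', he⟩

/-- Injectivity from surjectivity on a finite dimensional invariant subspace. -/
lemma inj_of_surj_on {W : Submodule k kG} {f : kG →ₗ[k] kG} (hf : ∀ v ∈ W, f v ∈ W)
    (hs : ∀ v ∈ W, ∃ w ∈ W, f w = v) {v w : kG} (hv : v ∈ W) (hw : w ∈ W) (h : f v = f w) : v = w := by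
  classical
  haveI : Module.Finite k kG := by
    have := Module.Finite.equiv (coeffEquivK (K := k) (G := G))
    exact this
  let g : W →ₗ[k] W := f.restrict hf
  have hg : Function.Surjective g := by
    rintro ⟨v, hv⟩
    obtain ⟨w, hw, rfl⟩ := hs v hv
    exact ⟨⟨w, hw⟩, rfl⟩
  have hi : Function.Injective g := LinearMap.injective_iff_surjective.mpr hg
  have := @hi ⟨v, hv⟩ ⟨w, hw⟩ (Subtype.ext h)
  exact congrArg Subtype.val this

/-- Rank one data relative to `U`, `T`, `n₀`: a root subgroup `x`, its `U`-complement `Us`, a Weyl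
element `n` and the torus elements `h`. -/
structure RankOne (U T : Subgroup G) (n₀ : G) (F : Type*) [Field F] [Fintype F] where
  x : F → G
  Us : Subgroup G
  n : G
  h : Fˣ → G
  x_zero : x 0 = 1
  x_add : ∀ a b, x (a + b) = x a * x b
  x_mem : ∀ a, x a ∈ U
  Us_le : Us ≤ U
  exists_fact : ∀ u ∈ U, ∃ u' ∈ Us, ∃ a, u = u' * x a
  fact_inj : ∀ u' ∈ Us, ∀ a, u' * x a = 1 → a = 0
  n_Us : ∀ u ∈ Us, n * u * n⁻¹ ∈ Us
  x_Us : ∀ a, ∀ u ∈ Us, x a * u * (x a)⁻¹ ∈ Us
  h_mem : ∀ d, h d ∈ T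
  h_mul : ∀ c d, h (c * d) = h c * h d
  tau_mem : n * n ∈ T
  tau_comm : ∀ a, x a * (n * n) = (n * n) * x a
  big : ∀ d : Fˣ, n * x ((d : F)⁻¹) * n⁻¹ = x (-(d : F)) * h d * n * x (-(d : F))
  w_mem : ∀ a, n₀ * n⁻¹ * x a * n * n₀⁻¹ ∈ U

section Rank

variable {F : Type*} [Field F] [Fintype F] [DecidableEq F]

lemma sum_field_eq {A : Type*} [AddCommMonoid A] (f : F → A) :
    ∑ b, f b = f 0 + ∑ d : Fˣ, f ((d : F)⁻¹) := by
  classical
  rw [← Finset.add_sum_erase Finset.univ f (Finset.mem_univ 0)]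
  congr 1
  symm
  refine Finset.sum_bij (fun d _ => ((d : Fˣ) : F)⁻¹) ?_ ?_ ?_ ?_
  · intro d _
    simp
  · intro a _ b _ h
    exact Units.ext (inv_injective h)
  · intro b hb
    have hb0 : b ≠ 0 := by simpa using hb
    exact ⟨(Units.mk0 b hb0)⁻¹, Finset.mem_univ _, by simp⟩
  · intro _ _
    rfl

namespace RankOne

variable (R : RankOne U T n₀ F)

lemma x_neg (a : F) : R.x (-a) = (R.x a)⁻¹ := by
  rw [eq_inv_iff_mul_eq_one, ← R.x_add, neg_add_cancel, R.x_zero]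

lemma n_Us' (u : G) (hu : u ∈ R.Us) : R.n⁻¹ * u * R.n ∈ R.Us := by
  have h1 : ∀ (m : ℕ) (u : G), u ∈ R.Us → R.n ^ m * u * (R.n ^ m)⁻¹ ∈ R.Us := by
    intro m
    induction m with
    | zero =>
      intro u hu
      simpa using hu
    | succ m ih =>
      intro u hu
      have e : R.n ^ (m + 1) * u * (R.n ^ (m + 1))⁻¹ = R.n * (R.n ^ m * u * (R.n ^ m)⁻¹) * R.n⁻¹ := by
        rw [pow_succ']
        group
      rw [e]
      exact R.n_Us _ (ih u hu)
  have h2 : R.n⁻¹ = R.n ^ (orderOf R.n - 1) := by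
    have hpos : 0 < orderOf R.n := orderOf_pos R.n
    apply inv_eq_of_mul_eq_one_left
    rw [← pow_succ, Nat.sub_add_cancel hpos, pow_orderOf_eq_one]
  have h3 := h1 (orderOf R.n - 1) u hu
  rw [← h2, inv_inv] at h3
  exact h3

/-- The sum over the root subgroup. -/
noncomputable def Sx (k : Type v) [Field k] : MonoidAlgebra k G := ∑ a : F, MonoidAlgebra.of k G (R.x a)

lemma of_mul_Sx (b : F) : (δ (R.x b) : kG) * R.Sx k = R.Sx k := by
  rw [Sx, Finset.mul_sum]
  refine Fintype.sum_equiv (Equiv.addLeft b) _ _ fun a => ?_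
  rw [← map_mul, ← R.x_add]
  rfl

lemma Sx_mul_of (b : F) : R.Sx k * (δ (R.x b) : kG) = R.Sx k := by
  rw [Sx, Finset.sum_mul]
  refine Fintype.sum_equiv (Equiv.addRight b) _ _ fun a => ?_
  rw [← map_mul, ← R.x_add]
  rfl

/-- The norm element of `U` factorises. -/
lemma nrm_eq : nrm k U = nrm k R.Us * R.Sx k := by
  classical
  rw [nrm, nrm, Sx, Finset.sum_mul_sum, ← Finset.sum_product']
  symm
  refine Finset.sum_bij (fun (q : R.Us × F) _ => (⟨(q.1 : G) * R.x q.2, U.mul_mem (R.Us_le q.1.2) (R.x_mem _)⟩ : U))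
    ?_ ?_ ?_ ?_
  · intro _ _
    exact Finset.mem_univ _
  · rintro ⟨a, b⟩ _ ⟨c, d⟩ _ h
    have h' : (a : G) * R.x b = (c : G) * R.x d := congrArg Subtype.val h
    have e1 : R.x b = R.x (b - d) * R.x d := by
      rw [← R.x_add, sub_add_cancel]
    rw [e1, ← mul_assoc] at h'
    have e2 := mul_right_cancel h'
    have e3 : ((c : G)⁻¹ * a) * R.x (b - d) = 1 := by
      rw [mul_assoc, e2, inv_mul_cancel]
    have e4 := R.fact_inj _ (R.Us.mul_mem (R.Us.inv_mem c.2) a.2) _ e3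
    have e5 : b = d := sub_eq_zero.mp e4
    subst e5
    rw [sub_self, R.x_zero, mul_one] at e2
    exact Prod.ext (Subtype.ext e2) rfl
  · rintro ⟨u, hu⟩ _
    obtain ⟨u', hu', a, rfl⟩ := R.exists_fact u hu
    exact ⟨(⟨u', hu'⟩, a), Finset.mem_univ _, rfl⟩
  · rintro ⟨a, b⟩ _
    simp only [map_mul]

/-- The operator `T_s`. -/
noncomputable def Ts : kG →ₗ[k] kG := LinearMap.mulRight k ((δ R.n : kG) * R.Sx k)

lemma Ts_apply (v : kG) : R.Ts v = v * ((δ R.n : kG) * R.Sx k) := rfl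

lemma Ts_mem {e v : kG} (hv : v ∈ Nb U e) : R.Ts v ∈ Nb U e := by
  refine ⟨?_, fun u hu => ?_⟩
  · rw [Ts_apply, ← mul_assoc, hv.1]
  · obtain ⟨u₀, hu₀, b, rfl⟩ := R.exists_fact u hu
    have key : ∀ a : F, v * (δ R.n * δ (R.x a)) * δ u₀ = v * (δ R.n * δ (R.x a)) := by
      intro a
      have h1 : R.x a * u₀ * (R.x a)⁻¹ ∈ R.Us := R.x_Us a u₀ hu₀
      have h2 : R.n * (R.x a * u₀ * (R.x a)⁻¹) * R.n⁻¹ ∈ U := R.Us_le (R.n_Us _ h1)
      have e1 : (δ R.n : kG) * δ (R.x a) * δ u₀ =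
          δ (R.n * (R.x a * u₀ * (R.x a)⁻¹) * R.n⁻¹) * (δ R.n * δ (R.x a)) := by
        simp only [← map_mul]
        congr 1
        group
      rw [mul_assoc v, e1, ← mul_assoc v, hv.2 _ h2]
    rw [Ts_apply, map_mul, ← mul_assoc (v * _)]
    have e2 : v * (δ R.n * R.Sx k) * δ u₀ = v * (δ R.n * R.Sx k) := by
      rw [Sx, Finset.mul_sum, Finset.mul_sum, Finset.sum_mul]
      exact Finset.sum_congr rfl fun a _ => key a
    rw [e2, mul_assoc, mul_assoc, Sx_mul_of]

/-- The element `v n₀ N_{Us} n⁻¹` is again invariant. -/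
lemma By_mem {e v : kG} (hv : v ∈ Nb U e) :
    v * (δ n₀ * nrm k R.Us * δ R.n⁻¹) ∈ Nb U e := by
  refine ⟨?_, fun u hu => ?_⟩
  · rw [← mul_assoc, hv.1]
  · obtain ⟨u₀, hu₀, b, rfl⟩ := R.exists_fact u hu
    have hn : nrm k R.Us * (δ R.n⁻¹ : kG) = δ R.n⁻¹ * nrm k R.Us :=
      (nrm_conj (by simpa using R.n_Us') (by simpa using R.n_Us)).symm
    have hx : nrm k R.Us * (δ (R.x b) : kG) = δ (R.x b) * nrm k R.Us := by
      refine (nrm_conj (fun u hu => R.x_Us b u hu) (fun u hu => ?_)).symm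
      have := R.x_Us (-b) u hu
      rw [x_neg, inv_inv] at this
      exact this
    have e1 : v * (δ n₀ * nrm k R.Us * δ R.n⁻¹) = v * (δ (n₀ * R.n⁻¹)) * nrm k R.Us := by
      rw [mul_assoc (δ n₀ : kG), hn, map_mul]
      simp only [mul_assoc]
    have e2 : (δ (n₀ * R.n⁻¹) : kG) * δ (R.x b) = δ (n₀ * R.n⁻¹ * R.x b * R.n * n₀⁻¹) * δ (n₀ * R.n⁻¹) := by
      simp only [← map_mul]
      congr 1
      group
    have e3 : (δ (u₀ * R.x b) : kG) = δ u₀ * δ (R.x b) := map_mul _ _ _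
    rw [e1]
    calc v * δ (n₀ * R.n⁻¹) * nrm k R.Us * δ (u₀ * R.x b)
        = v * δ (n₀ * R.n⁻¹) * (nrm k R.Us * δ u₀) * δ (R.x b) := by
          rw [e3]
          simp only [mul_assoc]
      _ = v * δ (n₀ * R.n⁻¹) * (nrm k R.Us * δ (R.x b)) := by
          rw [nrm_mul_of hu₀]
          simp only [mul_assoc]
      _ = v * (δ (n₀ * R.n⁻¹) * δ (R.x b)) * nrm k R.Us := by
          rw [hx]
          simp only [mul_assoc]
      _ = _ := by rw [e2, ← mul_assoc v, hv.2 _ (R.w_mem b)]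

lemma Aop_eq_Ts (v : kG) : Aop U n₀ v = R.Ts (v * (δ n₀ * nrm k R.Us * δ R.n⁻¹)) := by
  rw [Aop_apply, Ts_apply, nrm_eq R]
  have := of_inv_mul_of (k := k) R.n
  calc v * (δ n₀ * (nrm k R.Us * R.Sx k)) = v * (δ n₀ * nrm k R.Us * (δ R.n⁻¹ * δ R.n) * R.Sx k) := by
        rw [this]
        simp only [mul_assoc, mul_one]
    _ = _ := by simp only [mul_assoc]

/-- Sum over the torus elements. -/
noncomputable def Ds (k : Type v) [Field k] : MonoidAlgebra k G := ∑ d : Fˣ, MonoidAlgebra.of k G (R.h d)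

lemma of_mul_Ds (c : Fˣ) : (δ (R.h c) : kG) * R.Ds k = R.Ds k := by
  rw [Ds, Finset.mul_sum]
  refine Fintype.sum_equiv (Equiv.mulLeft c) _ _ fun a => ?_
  rw [← map_mul, ← R.h_mul]
  rfl

variable (hT : ∀ t ∈ T, ∀ u ∈ U, t * u * t⁻¹ ∈ U)
include hT

lemma nn_mem {e v : kG} (hv : v ∈ Nb U e) : v * δ (R.n * R.n) ∈ Nb U e := mul_T_mem hT hv R.tau_mem

lemma quad_mem {e v : kG} (hv : v ∈ Nb U e) : v * R.Ds k * δ (R.n * R.n) ∈ Nb U e := by
  rw [Ds, Finset.mul_sum, Finset.sum_mul]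
  exact (Nb U e).sum_mem fun d _ => nn_mem R hT (mul_T_mem hT hv (R.h_mem d))

/-- The quadratic relation. -/
lemma Ts_Ts {e v : kG} (hF : (Fintype.card F : k) = 0) (hv : v ∈ Nb U e) :
    R.Ts (R.Ts v) = R.Ts (v * R.Ds k * δ (R.n * R.n)) := by
  have h0 : v * (δ R.n * δ (R.x 0)) * (δ R.n * R.Sx k) = 0 := by
    rw [R.x_zero, map_one, mul_one]
    have e1 : v * δ R.n * (δ R.n * R.Sx k) = (v * δ (R.n * R.n)) * R.Sx k := by
      rw [map_mul]
      simp only [mul_assoc]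
    rw [e1]
    have hw := nn_mem R hT hv
    rw [Sx, Finset.mul_sum, Finset.sum_congr rfl fun a _ => hw.2 _ (R.x_mem a), Finset.sum_const,
      Finset.card_univ, ← Nat.cast_smul_eq_nsmul k, hF, zero_smul]
  have h1 : ∀ d : Fˣ, v * (δ R.n * δ (R.x ((d : F)⁻¹))) * (δ R.n * R.Sx k) =
      R.Ts (v * δ (R.h d) * δ (R.n * R.n)) := by
    intro d
    rw [Ts_apply]
    have e1 : (δ R.n : kG) * δ (R.x ((d : F)⁻¹)) * δ R.n =
        δ (R.x (-(d : F))) * δ (R.h d) * δ R.n * δ (R.x (-(d : F))) * δ (R.n * R.n) := by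
      simp only [← map_mul]
      congr 1
      rw [← R.big d]
      group
    have e2 : (δ (R.x (-(d : F))) : kG) * δ (R.n * R.n) * R.Sx k = δ (R.n * R.n) * R.Sx k := by
      have : (δ (R.x (-(d : F))) : kG) * δ (R.n * R.n) = δ (R.n * R.n) * δ (R.x (-(d : F))) := by
        simp only [← map_mul]
        rw [R.tau_comm]
      rw [this, mul_assoc, of_mul_Sx]
    have e3 : (δ R.n : kG) * δ (R.n * R.n) = δ (R.n * R.n) * δ R.n := by
      simp only [← map_mul]
      congr 1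
      group
    calc v * (δ R.n * δ (R.x ((d : F)⁻¹))) * (δ R.n * R.Sx k)
        = v * (δ R.n * δ (R.x ((d : F)⁻¹)) * δ R.n) * R.Sx k := by simp only [mul_assoc]
      _ = (v * δ (R.x (-(d : F)))) * δ (R.h d) * δ R.n * (δ (R.x (-(d : F))) * δ (R.n * R.n) * R.Sx k) := by
          rw [e1]
          simp only [mul_assoc]
      _ = v * δ (R.h d) * (δ R.n * δ (R.n * R.n)) * R.Sx k := by
          rw [hv.2 _ (R.x_mem _), e2]
          simp only [mul_assoc]
      _ = _ := by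
          rw [e3]
          simp only [mul_assoc]
  have h2 : R.Ts (R.Ts v) = v * (δ R.n * δ (R.x 0)) * (δ R.n * R.Sx k) +
      ∑ d : Fˣ, v * (δ R.n * δ (R.x ((d : F)⁻¹))) * (δ R.n * R.Sx k) := by
    rw [← sum_field_eq (fun b : F => v * (δ R.n * δ (R.x b)) * (δ R.n * R.Sx k)), ← Finset.sum_mul,
      ← Finset.mul_sum, ← Finset.mul_sum]
    rfl
  rw [h2, h0, zero_add, Finset.sum_congr rfl fun d _ => h1 d, ← map_sum, Ds, Finset.mul_sum,
    Finset.sum_mul]

variable {p : ℕ} [hp : Fact p.Prime] [CharP k p] (hU : IsPGroup p U) (hcell : CellHyp U T n₀)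
  {e : MonoidAlgebra k G} (hec : ∀ y : MonoidAlgebra k G, y * e = e * y) (hee : e * e = e) {g₀ : G} {c : k}
  (hc : c ≠ 0)
  (hZ : (∑ h : G, MonoidAlgebra.of k G h * MonoidAlgebra.of k G g₀ * nrm k U *
    MonoidAlgebra.of k G h⁻¹) * e = c • e)
include hU hcell hec hee hc hZ

lemma Ts_surj {v : kG} (hv : v ∈ Nb U e) : ∃ w ∈ Nb U e, R.Ts w = v := by
  obtain ⟨w, hw, he⟩ := Aop_surj hU hT hcell hec hee hc hZ hv
  exact ⟨_, By_mem R hw, by rw [← Aop_eq_Ts, he]⟩

lemma Ts_inj {v w : kG} (hv : v ∈ Nb U e) (hw : w ∈ Nb U e) (h : R.Ts v = R.Ts w) : v = w :=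
  inj_of_surj_on (fun _ hv => Ts_mem R hv) (fun _ hv => Ts_surj R hT hU hcell hec hee hc hZ hv) hv hw h

/-- The operator `T_s` is a torus sum. -/
lemma Ts_eq (hF : (Fintype.card F : k) = 0) {v : kG} (hv : v ∈ Nb U e) :
    R.Ts v = v * R.Ds k * δ (R.n * R.n) :=
  Ts_inj R hT hU hcell hec hee hc hZ (Ts_mem R hv) (quad_mem R hT hv) (Ts_Ts R hT hF hv)

/-- The elements `h d` act trivially on the invariants. -/
theorem mul_h_eq (hF : (Fintype.card F : k) = 0) {v : kG} (hv : v ∈ Nb U e) (d : Fˣ) :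
    v * δ (R.h d) = v := by
  refine Ts_inj R hT hU hcell hec hee hc hZ (mul_T_mem hT hv (R.h_mem d)) hv ?_
  rw [Ts_eq R hT hU hcell hec hee hc hZ hF (mul_T_mem hT hv (R.h_mem d)),
    Ts_eq R hT hU hcell hec hee hc hZ hF hv, mul_assoc v, of_mul_Ds]

end RankOne

end Rank

/-- Nonvanishing of the invariants. -/
lemma exists_Nb_ne_zero {e : kG} (hec : ∀ y : kG, y * e = e * y) (hee : e * e = e) (he : e ≠ 0) {g₀ : G}
    {c : k} (hc : c ≠ 0) (hZ : (∑ h : G, δ h * δ g₀ * nrm k U * δ h⁻¹) * e = c • e) :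
    ∃ v ∈ Nb U e, v ≠ 0 := by
  classical
  by_contra hcon
  push Not at hcon
  have hterm : ∀ h : G, δ h * δ g₀ * nrm k U * δ h⁻¹ * e = 0 := by
    intro h
    have hmem : δ h * δ g₀ * nrm k U * e ∈ Nb U e := by
      refine ⟨?_, fun u hu => ?_⟩
      · rw [← mul_assoc e, ← hec (δ h * δ g₀ * nrm k U), mul_assoc _ e e, hee]
      · rw [mul_assoc _ e, ← hec (δ u), ← mul_assoc, mul_assoc _ (nrm k U), nrm_mul_of hu]
    have h0 := hcon _ hmem
    rw [mul_assoc _ (δ h⁻¹) e, hec, ← mul_assoc, h0, zero_mul]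
  rw [Finset.sum_mul, Finset.sum_eq_zero fun h _ => hterm h] at hZ
  exact he ((smul_eq_zero.mp hZ.symm).resolve_left hc)

/-- The scalar of a central class sum: the number of class elements whose translate by `n₀` lies in the
big cell. -/
theorem omega_eq_card (hU : IsPGroup p U) (hT : ∀ t ∈ T, ∀ u ∈ U, t * u * t⁻¹ ∈ U) (hcell : CellHyp U T n₀)
    {e : kG} (hec : ∀ y : kG, y * e = e * y) (hee : e * e = e) (he : e ≠ 0) {g₀ : G} {c : k} (hc : c ≠ 0)
    (hZ : (∑ h : G, δ h * δ g₀ * nrm k U * δ h⁻¹) * e = c • e)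
    (htriv : ∀ t ∈ T, ∀ v ∈ Nb U e, v * δ t = v)
    (K : Finset G) (hK : ∀ y : kG, y * ∑ g ∈ K, δ g = (∑ g ∈ K, δ g) * y) {ω : k}
    (hω : (∑ g ∈ K, δ g) * e = ω • e) :
    open scoped _root_.Classical in
    ω = ((K.filter fun g => Cell U T n₀ (g * n₀)).card : k) := by
  classical
  obtain ⟨v, hv, hv0⟩ := exists_Nb_ne_zero hec hee he hc hZ
  have hA : Aop U n₀ v ≠ 0 := by
    intro h
    apply hv0
    have h' : Aop U n₀ v = Aop U n₀ 0 := by rw [h, map_zero]
    exact inj_of_surj_on (fun _ hv => Aop_mem hv)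
      (fun _ hv => Aop_surj hU hT hcell hec hee hc hZ hv) hv (Nb U e).zero_mem h'
  have h1 : v * ∑ g ∈ K, δ g = ω • v := by
    calc v * ∑ g ∈ K, δ g = (∑ g ∈ K, δ g) * (e * v) := by rw [hK, hv.1]
      _ = ω • v := by rw [← mul_assoc, hω, smul_mul_assoc, hv.1]
  have h2 : ∀ g ∈ K, v * δ g * (δ n₀ * nrm k U) =
      if Cell U T n₀ (g * n₀) then Aop U n₀ v else 0 := by
    intro g _
    have e1 : v * δ g * (δ n₀ * nrm k U) = v * δ (g * n₀) * nrm k U := by
      rw [map_mul]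
      simp only [mul_assoc]
    rw [e1]
    split_ifs with hg
    · obtain ⟨u₁, hu₁, t, ht, u₂, hu₂, hh⟩ := hg
      rw [hh, eval_cell hv hu₁ hu₂, htriv t ht v hv]
    · rcases hcell (g * n₀) with hg' | ⟨x, hx, hx1, hax⟩
      · exact absurd hg' hg
      · exact eval_noncell hU hv hx hx1 hax
  have h3 : ω • Aop U n₀ v = ((K.filter fun g => Cell U T n₀ (g * n₀)).card : k) • Aop U n₀ v := by
    calc ω • Aop U n₀ v = (v * ∑ g ∈ K, δ g) * (δ n₀ * nrm k U) := by
          rw [h1, Aop_apply, smul_mul_assoc]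
      _ = ∑ g ∈ K, v * δ g * (δ n₀ * nrm k U) := by
          rw [Finset.mul_sum, Finset.sum_mul]
      _ = ∑ g ∈ K, if Cell U T n₀ (g * n₀) then Aop U n₀ v else 0 := Finset.sum_congr rfl h2
      _ = _ := by
          rw [Finset.sum_ite, Finset.sum_const, Finset.sum_const_zero, add_zero,
            Nat.cast_smul_eq_nsmul]
  have h4 : (ω - ((K.filter fun g => Cell U T n₀ (g * n₀)).card : k)) • Aop U n₀ v = 0 := by
    rw [sub_smul, h3, sub_self]
  exact sub_eq_zero.mp ((smul_eq_zero.mp h4).resolve_right hA)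

end Char

end Cfsg.Agent.Lib.DefBlocks
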