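import Cfsg.Agent.Lib.DefBlocks.Hecke
import Cfsg.Agent.Lib.BlockAlg.Reduce
import Cfsg.Agent.Lib.Blocks.Green
import Cfsg.Agent.Lib.Blocks.Inducing
import Cfsg.Agent.Lib.Blocks.Cover

/-!
# Reduction of a block of defect zero

For an irreducible character `χ` of defect zero and a `p`-subgroup `U`, the reduction `E` of the central
idempotent of `χ` is a nonzero central idempotent over the residue field with `E N_U ≠ 0`; hence `E` is
a nonzero multiple of itself times a suitable sum of conjugates of `g₀ N_U`.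
-/

set_option autoImplicit false
set_option linter.unusedSectionVars false
set_option linter.unusedSimpArgs false
set_option linter.unusedVariables false
set_option linter.style.haveILetI false

namespace Cfsg.Agent.Lib.DefBlocks

open Cfsg MonoidAlgebra
open Cfsg.Agent.Lib.BlockAlg
open Cfsg.Agent.Lib.Blocks.Local Cfsg.Agent.Lib.Blocks.Central Cfsg.Agent.Lib.Blocks.Brauer
open Cfsg.Agent.Lib.Blk89.BlockPow
open scoped ComplexConjugate

universe u v

section CharP

variable {G : Type u} [Group G] [Fintype G] {k : Type v} [Field k] {p : ℕ} [hp : Fact p.Prime] [CharP k p]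

local notation "kG" => MonoidAlgebra k G
local notation "δ" => MonoidAlgebra.of k G

/-- A nonzero central idempotent is not annihilated by the norm element of a `p`-subgroup. -/
theorem mul_nrm_ne_zero {U : Subgroup G} (hU : IsPGroup p U) {E : kG} (hc : ∀ y : kG, y * E = E * y)
    (hee : E * E = E) (hE : E ≠ 0) : E * nrm k U ≠ 0 := by
  classical
  intro h0
  -- the additive subgroup generated by the `U`-orbit of `E`
  let S : Set kG := Set.range fun u : U => E * δ (u : G)
  let A : AddSubgroup kG := AddSubgroup.closure S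
  have hS : S.Finite := Set.finite_range _
  haveI : AddGroup.FG A := (AddGroup.fg_iff_addSubgroup_fg A).mpr ⟨hS.toFinset, by simp [A]⟩
  have htp : ∀ a : kG, p • a = 0 := by
    intro a
    rw [← Nat.cast_smul_eq_nsmul k, CharP.cast_eq_zero, zero_smul]
  haveI hA : Finite A := by
    have htor : IsAddTorsion A := by
      intro a
      refine isOfFinAddOrder_iff_nsmul_eq_zero.mpr ⟨p, hp.out.pos, ?_⟩
      apply Subtype.ext
      exact htp _
    exact AddCommGroup.finite_of_fg_isAddTorsion A htor
  have hmem : ∀ a ∈ A, ∀ u : U, a * δ (u : G) ∈ A := by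
    intro a ha u
    induction ha using AddSubgroup.closure_induction with
    | mem x hx =>
      obtain ⟨w, rfl⟩ := hx
      apply AddSubgroup.subset_closure
      refine ⟨w * u, ?_⟩
      simp only [Subgroup.coe_mul, map_mul, mul_assoc]
    | zero => rw [zero_mul]; exact A.zero_mem
    | add x y _ _ hx hy => rw [add_mul]; exact A.add_mem hx hy
    | neg x _ hx => rw [neg_mul]; exact A.neg_mem hx
  have hEA : E ∈ A := by
    apply AddSubgroup.subset_closure
    refine ⟨1, ?_⟩
    change E * δ ((1 : U) : G) = E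
    rw [Subgroup.coe_one, map_one, mul_one]
  letI act : MulAction U A :=
    { smul := fun u a => ⟨a.1 * δ ((u⁻¹ : U) : G), hmem _ a.2 _⟩
      one_smul := fun a => by
        apply Subtype.ext
        change a.1 * δ (((1 : U)⁻¹ : U) : G) = a.1
        rw [inv_one, Subgroup.coe_one, map_one, mul_one]
      mul_smul := fun u w a => by
        apply Subtype.ext
        change a.1 * δ (((u * w)⁻¹ : U) : G) = a.1 * δ ((w⁻¹ : U) : G) * δ ((u⁻¹ : U) : G)
        rw [mul_assoc, ← map_mul, mul_inv_rev]
        rfl }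
  have hcard : p ∣ Nat.card A := by
    have h1 : addOrderOf (⟨E, hEA⟩ : A) = p := by
      apply addOrderOf_eq_prime
      · apply Subtype.ext
        exact htp _
      · intro h
        exact hE (congrArg Subtype.val h)
    rw [← h1]
    exact addOrderOf_dvd_natCard _
  have hfix0 : (0 : A) ∈ MulAction.fixedPoints U A := by
    intro u
    apply Subtype.ext
    change (0 : kG) * _ = 0
    rw [zero_mul]
  obtain ⟨b, hb, hb0⟩ := hU.exists_fixed_point_of_prime_dvd_card_of_fixed_point A hcard hfix0
  have hb1 : ∀ u ∈ U, b.1 * δ u = b.1 := by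
    intro u hu
    have h1 := hb (⟨u, hu⟩⁻¹ : U)
    have h2 := congrArg Subtype.val h1
    change b.1 * δ (((⟨u, hu⟩⁻¹ : U)⁻¹ : U) : G) = b.1 at h2
    simpa using h2
  have hb2 : ∀ a ∈ A, E * a = a := by
    intro a ha
    induction ha using AddSubgroup.closure_induction with
    | mem x hx =>
      obtain ⟨w, rfl⟩ := hx
      rw [← mul_assoc, hee]
    | zero => rw [mul_zero]
    | add x y _ _ hx hy => rw [mul_add, hx, hy]
    | neg x _ hx => rw [mul_neg, hx]
  obtain ⟨y, hy⟩ := exists_eq_mul_nrm hb1
  apply hb0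
  apply Subtype.ext
  change (0 : kG) = b.1
  rw [← hb2 _ b.2, hy, ← mul_assoc, ← hc y, mul_assoc, h0, mul_zero]

end CharP

section Reduction

variable {G : Type u} [Group G] [Fintype G] {M : Ideal AlgInt} [hMp : M.IsPrime]

local notation "δc" => MonoidAlgebra.of ℂ G
local notation "δk" => MonoidAlgebra.of (Res M) G

omit hMp in
theorem Rc_of [hMp : M.IsPrime] (g : G) : Rc M (δc g) := Rc.single g memLocalRing_one

theorem red_of (g : G) : red M (δc g) = δk g := by
  classical
  ext h
  rw [coeff_red, MonoidAlgebra.of_apply, MonoidAlgebra.of_apply, coeff_singleK, coeff_singleK]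
  split_ifs
  · exact r_one
  · exact r_zero

theorem red_sum {ι : Type*} (s : Finset ι) (f : ι → GA G) (hf : ∀ i ∈ s, Rc M (f i)) :
    red M (∑ i ∈ s, f i) = ∑ i ∈ s, red M (f i) := by
  classical
  induction s using Finset.induction_on with
  | empty =>
    ext g
    simp only [Finset.sum_empty]
    exact r_zero
  | insert a s ha ih =>
    rw [Finset.sum_insert ha, Finset.sum_insert ha, red_add (hf a (Finset.mem_insert_self _ _))
      (Rc.sum _ _ fun i hi => hf i (Finset.mem_insert_of_mem hi)),
      ih fun i hi => hf i (Finset.mem_insert_of_mem hi)]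

theorem Rc_nrm (U : Subgroup G) : Rc M (nrm ℂ U) := Rc.sum _ _ fun u _ => Rc_of _

theorem red_nrm (U : Subgroup G) : red M (nrm ℂ U) = nrm (Res M) U := by
  rw [nrm, red_sum _ _ fun u _ => Rc_of _, nrm]
  exact Finset.sum_congr rfl fun u _ => red_of _

/-- The sum of conjugates of an element. -/
noncomputable def cSum (x : GA G) : GA G := ∑ h : G, δc h * x * δc h⁻¹

theorem coeff_conj_mul (x : GA G) (h a : G) : (δc h * x * δc h⁻¹).coeff a = x.coeff (h⁻¹ * a * h) := by
  simp only [MonoidAlgebra.of_apply]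
  rw [coeff_mul_single_apply, coeff_single_mul_apply]
  simp [mul_assoc]

theorem isCentral_cSum (x : GA G) : IsCentral (cSum x) := by
  intro g h
  rw [cSum, coeff_sum', coeff_sum']
  refine Fintype.sum_equiv (Equiv.mulLeft h⁻¹) _ _ fun a => ?_
  rw [coeff_conj_mul, coeff_conj_mul]
  congr 1
  simp only [Equiv.coe_mulLeft]
  group

/-- The central element attached to `x`. -/
noncomputable def cCent (x : GA G) : Subalgebra.center ℂ (GA G) :=
  ⟨cSum x, (mem_center_iff _).mpr (isCentral_cSum x)⟩

theorem Rc_cSum {x : GA G} (hx : Rc M x) : Rc M (cSum x) :=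
  Rc.sum _ _ fun h _ => ((Rc_of h).mul hx).mul (Rc_of _)

theorem lin_cSum {χ : G → ℂ} (hχ : IsClassFunction G χ) (x : GA G) :
    lin χ (cSum x) = (Fintype.card G : ℂ) * lin χ x := by
  rw [cSum, map_sum]
  have h : ∀ h : G, lin χ (δc h * x * δc h⁻¹) = lin χ x := by
    intro h
    rw [lin_mul_comm hχ, ← mul_assoc, ← map_mul, inv_mul_cancel, map_one, one_mul]
  rw [Finset.sum_congr rfl fun h _ => (by rw [‹∀ h : G, lin χ (δc h * x * δc h⁻¹) = lin χ x› h] : lin χ (δc h * x * δc h⁻¹) = lin χ x),
    Finset.sum_const, Finset.card_univ, nsmul_eq_mul]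

theorem lin_of_mul_nrm {χ : G → ℂ} (g : G) (U : Subgroup G) [Fintype U] :
    lin χ (δc g * nrm ℂ U) = ∑ u : U, χ (g * u) := by
  rw [nrm_eq_sum, Finset.mul_sum, map_sum]
  refine Finset.sum_congr rfl fun u _ => ?_
  rw [← map_mul, MonoidAlgebra.of_apply, lin_single, one_mul]

variable [Fintype (IrrCharacter G)]

/-- The action of a central element on a central idempotent. -/
theorem mul_idem_singleton (χ : IrrCharacter G) (z : Subalgebra.center ℂ (GA G)) :
    z * idem {χ} = omegaHom χ z • idem {χ} := by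
  classical
  apply omegaHom_injective
  intro ψ
  rw [map_mul, map_smul, omegaHom_idem, smul_eq_mul]
  by_cases h : ψ ∈ ({χ} : Set (IrrCharacter G))
  · rw [if_pos h, mul_one, mul_one]
    have : ψ = χ := h
    rw [this]
  · rw [if_neg h, mul_zero, mul_zero]

end Reduction

section Package

variable {G : Type u} [Group G] [Fintype G] {M : Ideal AlgInt} {p : ℕ} [hMp : M.IsPrime]
  [Fintype (IrrCharacter G)]

local notation "δc" => MonoidAlgebra.of ℂ G
local notation "δk" => MonoidAlgebra.of (Res M) G

/-- The reduction of the central idempotent of `χ`. -/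
noncomputable def Ered (M : Ideal AlgInt) [M.IsPrime] (χ : IrrCharacter G) : MonoidAlgebra (Res M) G :=
  red M ((idem {χ} : Subalgebra.center ℂ (GA G)) : GA G)

theorem Ered_central (χ : IrrCharacter G) (y : MonoidAlgebra (Res M) G) : y * Ered M χ = Ered M χ * y :=
  central_red (isCentral_of_mem _) y

/-- The reduction of a class sum. -/
theorem red_classSum (g : G) : open scoped _root_.Classical in
    red M ((classSum g : Subalgebra.center ℂ (GA G)) : GA G) =
      ∑ h ∈ Finset.univ.filter (fun h => IsConj g h), δk h := by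
  classical
  ext a
  rw [coeff_red, coeff_classSum, MonoidAlgebra.coeff_sum, Finsupp.finsetSum_apply]
  simp only [MonoidAlgebra.of_apply, coeff_singleK]
  rw [Finset.sum_ite_eq]
  by_cases h : IsConj g a
  · rw [if_pos h, if_pos (Finset.mem_filter.mpr ⟨Finset.mem_univ _, h⟩)]
    exact r_one
  · rw [if_neg h, if_neg (fun h2 => h (Finset.mem_filter.mp h2).2)]
    exact r_zero

/-- The class sums are central. -/
theorem class_central (g : G) (y : MonoidAlgebra (Res M) G) : open scoped _root_.Classical in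
    y * (∑ h ∈ Finset.univ.filter (fun h => IsConj g h), δk h) =
      (∑ h ∈ Finset.univ.filter (fun h => IsConj g h), δk h) * y := by
  rw [← red_classSum]
  exact central_red (isCentral_of_mem _) y

/-- The coefficient of the idempotent. -/
theorem coeff_idem_singleton (χ : IrrCharacter G) (x : G) :
    ((idem {χ} : Subalgebra.center ℂ (GA G)) : GA G).coeff x =
      (Nat.card G : ℂ)⁻¹ * ((χ : G → ℂ) 1 * (χ : G → ℂ) x⁻¹) := by
  rw [coeff_idem, blockCoeff, finsum_mem_singleton]
  congr 2
  exact (Cfsg.Agent.Lib.Char.Ortho.char_inv_eq_conj (Cfsg.Agent.Lib.Char.Basic.isCharacter_of_isIrrCharacter χ.2) x).symm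

variable (hM : IsPModular p M) (χ : IrrCharacter G) (hd : ¬ p ∣ Nat.card G / charDegree (χ : G → ℂ))
include hM hd

theorem block_singleton : IsPBlock M ({χ} : Set (IrrCharacter G)) := by
  haveI : Fact p.Prime := ⟨hM.1⟩
  exact ⟨χ, ((Cfsg.Agent.Lib.Blocks.Inducing.blockOf_eq_singleton_iff hM χ).mp hd).symm⟩

theorem Rc_idem : Rc M ((idem {χ} : Subalgebra.center ℂ (GA G)) : GA G) :=
  Rc.of_localCenter (idem_mem_localCenter (block_singleton hM χ hd))

theorem Ered_idem : Ered M χ * Ered M χ = Ered M χ := by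
  have h := Rc_idem hM χ hd
  rw [Ered, ← red_mul h h, ← Subalgebra.coe_mul, Cfsg.Agent.Lib.Blocks.Green.idem_mul_self]

theorem Ered_ne_zero : Ered M χ ≠ 0 := by
  intro h
  have hJ : Jc M ((idem {χ} : Subalgebra.center ℂ (GA G)) : GA G) := by
    intro g
    have h1 := congrArg (fun z : MonoidAlgebra (Res M) G => z.coeff g) h
    change r M _ = 0 at h1
    exact (r_eq_zero_iff (Rc_idem hM χ hd g)).mp h1
  exact Cfsg.Agent.Lib.Blocks.Cover.idem_not_Jc (block_singleton hM χ hd) hJ

/-- The action of a central element with local coefficients, reduced. -/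
theorem red_central_mul {z : Subalgebra.center ℂ (GA G)} (hz : z ∈ localCenter M G) :
    red M (z : GA G) * Ered M χ = r M (omegaHom χ z) • Ered M χ := by
  have h := Rc_idem hM χ hd
  rw [Ered, ← red_mul (Rc.of_localCenter hz) h, ← Subalgebra.coe_mul, mul_idem_singleton,
    Subalgebra.coe_smul, red_smul (omegaHom_mem_local χ hz) h]

/-- The scalar by which the reduced class sum acts. -/
theorem class_mul (g : G) : open scoped _root_.Classical in
    (∑ h ∈ Finset.univ.filter (fun h => IsConj g h), δk h) * Ered M χ =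
      r M (centralChar (χ : G → ℂ) g) • Ered M χ := by
  rw [← red_classSum, red_central_mul hM χ hd (classSum_mem_localCenter g), omegaHom_classSum]

/-- The element of the ideal generated by the norm element acting by a nonzero scalar. -/
theorem exists_Z {U : Subgroup G} (hU : IsPGroup p U) :
    ∃ (g₀ : G) (c : Res M), c ≠ 0 ∧
      (∑ h : G, δk h * δk g₀ * nrm (Res M) U * δk h⁻¹) * Ered M χ = c • Ered M χ := by
  classical
  haveI hpf : Fact p.Prime := ⟨hM.1⟩
  haveI := charP_res hM
  have h1 := mul_nrm_ne_zero hU (Ered_central χ) (Ered_idem hM χ hd) (Ered_ne_zero hM χ hd)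
  have hRe := Rc_idem hM χ hd
  have hRN : Rc M (nrm ℂ U) := Rc_nrm U
  have h2 : ∃ g₁, (Ered M χ * nrm (Res M) U).coeff g₁ ≠ 0 := by
    by_contra hcon
    push Not at hcon
    apply h1
    ext g
    exact hcon g
  obtain ⟨g₁, hg₁⟩ := h2
  rw [Ered, ← red_nrm, ← red_mul hRe hRN, coeff_red] at hg₁
  have h3 : ¬ MemLocalIdeal M ((((idem {χ} : Subalgebra.center ℂ (GA G)) : GA G) * nrm ℂ U).coeff g₁) := by
    intro h
    exact hg₁ ((r_eq_zero_iff ((hRe.mul hRN) g₁)).mpr h)
  -- numerics
  obtain ⟨m, hm⟩ := Cfsg.Agent.Lib.Char.Degree.charDegree_dvd_card χ.2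
  have hdpos := Cfsg.Agent.Lib.Char.Degree.charDegree_pos χ.2
  have hmd : Nat.card G / charDegree (χ : G → ℂ) = m := by
    rw [hm]
    exact Nat.mul_div_cancel_left _ hdpos
  have hd' := hd
  rw [hmd] at hd'
  have hmne : (m : ℂ) ≠ 0 := by
    refine Nat.cast_ne_zero.mpr ?_
    rintro rfl
    exact hd' (dvd_zero p)
  have hdne : (charDegree (χ : G → ℂ) : ℂ) ≠ 0 := Nat.cast_ne_zero.mpr hdpos.ne'
  have hχ1 := Cfsg.Agent.Lib.Blocks.Heights.irr_one_eq χ
  have hclass := Cfsg.Agent.Lib.Char.Basic.isClassFunction_of_isIrrCharacter χ.2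
  set S : ℂ := ∑ u : U, (χ : G → ℂ) (g₁⁻¹ * u) with hS
  -- the coefficient of `e N`
  have h4 : (((idem {χ} : Subalgebra.center ℂ (GA G)) : GA G) * nrm ℂ U).coeff g₁ = (m : ℂ)⁻¹ * S := by
    rw [nrm_eq_sum, Finset.mul_sum, coeff_sum', hS, Finset.mul_sum]
    refine Finset.sum_congr rfl fun u _ => ?_
    rw [MonoidAlgebra.of_apply, coeff_mul_single_apply, mul_one, coeff_idem_singleton χ,
      hχ1, hm]
    have e1 : (g₁ * (u : G)⁻¹)⁻¹ = (u : G) * g₁⁻¹ := by group
    rw [e1, comm_of_class hclass]
    push_cast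
    field_simp
  rw [h4] at h3
  have hminv : MemLocalRing M ((m : ℂ)⁻¹) := memLocalRing_natCast_inv hM hd'
  have hS1 : ¬ MemLocalIdeal M S := fun h => h3 (memLocalIdeal_mul_left hminv h)
  -- the central element
  set x : GA G := δc g₁⁻¹ * nrm ℂ U with hx
  have hRx : Rc M x := (Rc_of _).mul hRN
  have hZmem : cCent x ∈ localCenter M G := Rc_cSum hRx
  have hω : omegaHom χ (cCent x) = (m : ℂ) * S := by
    rw [omegaHom_apply]
    change lin (χ : G → ℂ) (cSum x) / _ = _
    rw [lin_cSum hclass, hx, lin_of_mul_nrm, hχ1, ← Nat.card_eq_fintype_card, hm]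
    push_cast
    field_simp
    rfl
  have hmS : ¬ MemLocalIdeal M ((m : ℂ) * S) := by
    have hSl : MemLocalRing M S := by
      have h5 : S = (m : ℂ)⁻¹ * ((m : ℂ) * S) := by
        field_simp
      rw [h5, ← hω]
      exact memLocalRing_mul hminv (omegaHom_mem_local χ hZmem)
    have hmn : ¬ MemLocalIdeal M (m : ℂ) := fun h => hd' ((natCast_memLocalIdeal_iff hM m).mp h)
    exact notMem_mul (memLocalRing_natCast m) hmn hSl hS1
  refine ⟨g₁⁻¹, r M ((m : ℂ) * S), ?_, ?_⟩
  · intro h0
    rw [← hω] at h0 hmS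
    exact hmS ((r_eq_zero_iff (omegaHom_mem_local χ hZmem)).mp h0)
  · have h6 := red_central_mul hM χ hd hZmem
    rw [hω] at h6
    rw [← h6]
    congr 1
    change _ = red M (cSum x)
    rw [cSum, red_sum _ _ fun h _ => ((Rc_of h).mul hRx).mul (Rc_of _)]
    refine Finset.sum_congr rfl fun h _ => ?_
    rw [red_mul ((Rc_of h).mul hRx) (Rc_of _), red_mul (Rc_of h) hRx, hx, red_mul (Rc_of _) hRN, red_nrm, red_of,
      red_of, red_of]
    simp only [mul_assoc]

end Package

end Cfsg.Agent.Lib.DefBlocks
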