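import Cfsg.Agent.Lib.DefBlocks.Hecke
import Cfsg.Agent.Lib.KS71.UniTri
import Cfsg.Agent.Lib.Classical.Flags.SLn

/-!
# Rank one data for `SL_n(F)`

The unitriangular group `U`, the diagonal group `T`, the monomial element `n₀` for the longest permutation,
the big cell hypothesis and the rank one data for the simple roots.
-/

set_option autoImplicit false
set_option linter.unusedSectionVars false
set_option linter.unusedSimpArgs false
set_option linter.unusedVariables false
set_option linter.style.haveILetI false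

namespace Cfsg.Agent.Lib.DefBlocks.SLnData

open Matrix
open scoped MatrixGroups
open Cfsg.Agent.Lib.KS71.UniTri
open Cfsg.Agent.Lib.Classical.Flags
open Cfsg.Agent.Lib.DefBlocks

variable {n : ℕ} {F : Type*} [Field F]

local notation "Mt" => Matrix (Fin n) (Fin n) F
local notation "SLn" => Matrix.SpecialLinearGroup (Fin n) F

/-! ### Diagonal matrices -/

/-- Diagonal matrices. -/
def IsDg (A : Matrix (Fin n) (Fin n) F) : Prop := ∀ i j, i ≠ j → A i j = 0

lemma IsDg.mul_apply {A : Mt} (hA : IsDg A) (M : Mt) (i j : Fin n) : (A * M) i j = A i i * M i j := by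
  rw [Matrix.mul_apply, Finset.sum_eq_single i]
  · intro b _ hb
    rw [hA i b (Ne.symm hb), zero_mul]
  · simp

lemma IsDg.apply_mul {A : Mt} (hA : IsDg A) (M : Mt) (i j : Fin n) : (M * A) i j = M i j * A j j := by
  rw [Matrix.mul_apply, Finset.sum_eq_single j]
  · intro b _ hb
    rw [hA b j hb, mul_zero]
  · simp

lemma IsDg.mul {A B : Mt} (hA : IsDg A) (hB : IsDg B) : IsDg (A * B) := by
  intro i j hij
  rw [hA.mul_apply, hB i j hij, mul_zero]

variable [Finite F]

/-- The diagonal subgroup. -/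
def Tt (n : ℕ) (F : Type*) [Field F] [Finite F] : Subgroup (Matrix.SpecialLinearGroup (Fin n) F) where
  carrier := {A | IsDg (A : Matrix (Fin n) (Fin n) F)}
  mul_mem' := fun {a b} ha hb => IsDg.mul ha hb
  one_mem' := fun i j hij => Matrix.one_apply_ne hij
  inv_mem' := by
    intro A hA
    have hpow : ∀ k : ℕ, IsDg ((A ^ k : Matrix.SpecialLinearGroup (Fin n) F) : Matrix (Fin n) (Fin n) F) := by
      intro k
      induction k with
      | zero => exact fun i j hij => Matrix.one_apply_ne hij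
      | succ k ih =>
        rw [pow_succ]
        exact IsDg.mul ih hA
    have h : A⁻¹ = A ^ (orderOf A - 1) := by
      have hpos : 0 < orderOf A := orderOf_pos A
      apply inv_eq_of_mul_eq_one_left
      rw [← pow_succ, Nat.sub_add_cancel hpos, pow_orderOf_eq_one]
    rw [Set.mem_ofPred_eq, h]
    exact hpow _

lemma mem_Tt {A : SLn} : A ∈ Tt n F ↔ IsDg (A : Mt) := Iff.rfl

lemma Tt_inv_mul {t : SLn} (ht : t ∈ Tt n F) (j : Fin n) : (t : Mt) j j * ((t⁻¹ : SLn) : Mt) j j = 1 := by
  have h1 : (t : Mt) * ((t⁻¹ : SLn) : Mt) = 1 := by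
    rw [← Matrix.SpecialLinearGroup.coe_mul, mul_inv_cancel, Matrix.SpecialLinearGroup.coe_one]
  have h2 := congrFun (congrFun h1 j) j
  rwa [IsDg.mul_apply ht, Matrix.one_apply_eq] at h2

/-- `T` normalises `U`. -/
lemma Tt_conj {t u : SLn} (ht : t ∈ Tt n F) (hu : u ∈ U n F) : t * u * t⁻¹ ∈ U n F := by
  rw [mem_U]
  intro i j hij
  have ht' : IsDg ((t⁻¹ : SLn) : Mt) := (Tt n F).inv_mem ht
  rw [Matrix.SpecialLinearGroup.coe_mul, Matrix.SpecialLinearGroup.coe_mul, IsDg.apply_mul ht',
    IsDg.mul_apply ht, hu i j hij]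
  split_ifs with h
  · subst h
    rw [mul_one, Tt_inv_mul ht]
  · simp

/-! ### Monomial matrices -/

/-- Monomial matrices. -/
def IsMono (w : Equiv.Perm (Fin n)) (ε : Fin n → F) (A : Mt) : Prop :=
  ∀ k l, A k l = if k = w l then ε k else 0

omit [Finite F] in
lemma IsMono.mul_apply {w : Equiv.Perm (Fin n)} {ε : Fin n → F} {A : Mt} (h : IsMono w ε A) (M : Mt) (k l : Fin n) :
    (A * M) k l = ε k * M (w⁻¹ k) l := by
  rw [Matrix.mul_apply, Finset.sum_eq_single (w⁻¹ k)]
  · rw [h, if_pos (by simp)]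
  · intro b _ hb
    rw [h, if_neg, zero_mul]
    rintro rfl
    exact hb (by simp)
  · simp

omit [Finite F] in
lemma IsMono.apply_mul {w : Equiv.Perm (Fin n)} {ε : Fin n → F} {A : Mt} (h : IsMono w ε A) (M : Mt) (k l : Fin n) :
    (M * A) k l = M k (w l) * ε (w l) := by
  rw [Matrix.mul_apply, Finset.sum_eq_single (w l)]
  · rw [h, if_pos rfl]
  · intro b _ hb
    rw [h, if_neg hb, mul_zero]
  · simp

omit [Finite F] in
lemma det_of_isMono {w : Equiv.Perm (Fin n)} {ε : Fin n → F} {A : Mt} (h : IsMono w ε A) :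
    A.det = (∏ k, ε k) * ((Equiv.Perm.sign w : ℤˣ) : ℤ) := by
  have e : A = Matrix.diagonal ε * (w⁻¹ : Equiv.Perm (Fin n)).permMatrix F := by
    ext k l
    rw [Matrix.diagonal_mul, h k l]
    change _ = ε k * (((w⁻¹ : Equiv.Perm (Fin n)).toPEquiv).toMatrix k l)
    rw [PEquiv.toMatrix_toPEquiv_apply, Pi.single_apply]
    by_cases hkl : k = w l
    · subst hkl
      simp
    · rw [if_neg hkl, if_neg, mul_zero]
      intro h2
      apply hkl
      rw [h2]
      simp
  rw [e, Matrix.det_mul, Matrix.det_diagonal, Matrix.det_permutation]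
  simp

omit [Finite F] in
/-- Conjugation by a monomial element. -/
lemma conj_apply {w : Equiv.Perm (Fin n)} {ε : Fin n → F} {m : SLn} (hm : IsMono w ε (m : Mt)) (hε : ∀ k, ε k ≠ 0)
    (u : SLn) (k l : Fin n) :
    ((m * u * m⁻¹ : SLn) : Mt) k l = ε k * (ε l)⁻¹ * (u : Mt) (w⁻¹ k) (w⁻¹ l) := by
  have h1 : ((m * u * m⁻¹ : SLn) : Mt) * (m : Mt) = (m : Mt) * (u : Mt) := by
    rw [← Matrix.SpecialLinearGroup.coe_mul, ← Matrix.SpecialLinearGroup.coe_mul]
    simp
  have h2 := congrFun (congrFun h1 k) (w⁻¹ l)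
  rw [hm.apply_mul, hm.mul_apply] at h2
  have e : w (w⁻¹ l) = l := by simp
  rw [e] at h2
  field_simp [hε l] at h2 ⊢
  rw [h2]

omit [Finite F] in
lemma conj_apply' {w : Equiv.Perm (Fin n)} {ε : Fin n → F} {m : SLn} (hm : IsMono w ε (m : Mt)) (hε : ∀ k, ε k ≠ 0)
    (u : SLn) (k l : Fin n) :
    ((m⁻¹ * u * m : SLn) : Mt) k l = (ε (w k))⁻¹ * ε (w l) * (u : Mt) (w k) (w l) := by
  have h1 := conj_apply hm hε (m⁻¹ * u * m) (w k) (w l)
  have e : m * (m⁻¹ * u * m) * m⁻¹ = u := by group
  have e1 : ∀ x, w⁻¹ (w x) = x := fun x => by simp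
  rw [e, e1, e1] at h1
  rw [h1]
  field_simp [hε (w k), hε (w l)]

/-! ### Root elements -/

section Root

variable (i j : Fin n)

/-- The root element. -/
def xS (hne : i ≠ j) (a : F) : SLn := ⟨transvection i j a, det_transvection_of_ne i j hne a⟩

lemma xS_coe (hne : i ≠ j) (a : F) : ((xS i j hne a : SLn) : Mt) = transvection i j a := rfl

lemma xS_zero (hne : i ≠ j) : xS i j hne (0 : F) = 1 := by
  apply Subtype.ext
  exact transvection_zero i j

lemma xS_add (hne : i ≠ j) (a b : F) : xS i j hne (a + b) = xS i j hne a * xS i j hne b := by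
  apply Subtype.ext
  exact (transvection_mul_transvection_same i j hne a b).symm

lemma transv_apply (c : F) (k l : Fin n) :
    (transvection i j c : Mt) k l = (if k = l then 1 else 0) + (if k = i ∧ l = j then c else 0) := by
  rw [transvection, Matrix.add_apply, Matrix.one_apply, Matrix.single_apply]
  congr 1
  by_cases h1 : i = k <;> by_cases h2 : j = l <;> simp [h1, h2, eq_comm]

lemma xS_mem (hlt : i < j) (a : F) : xS i j hlt.ne a ∈ U n F := by
  rw [mem_U]
  intro k l hkl
  have h : ¬ (k = i ∧ l = j) := by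
    rintro ⟨rfl, rfl⟩
    exact absurd hkl (not_le.mpr hlt)
  rw [xS_coe, transv_apply, if_neg h, add_zero]

omit [Finite F] in
lemma transv_mul_apply (c : F) (M : Mt) (k l : Fin n) :
    (transvection i j c * M) k l = M k l + (if k = i then c * M j l else 0) := by
  by_cases h : k = i
  · subst h
    rw [transvection_mul_apply_same, if_pos rfl]
  · rw [transvection_mul_apply_of_ne _ _ _ _ h, if_neg h, add_zero]

omit [Finite F] in
lemma mul_transv_apply (c : F) (M : Mt) (k l : Fin n) :
    (M * transvection i j c) k l = M k l + (if l = j then c * M k i else 0) := by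
  by_cases h : l = j
  · subst h
    rw [mul_transvection_apply_same, if_pos rfl]
  · rw [mul_transvection_apply_of_ne _ _ _ _ h, if_neg h, add_zero]

variable (hadj : (j : ℕ) = i + 1)
include hadj

omit hadj in
lemma ut_diag {u : Mt} (hu : IsUT u) (k : Fin n) : u k k = 1 := by
  rw [hu k k le_rfl, if_pos rfl]

omit hadj in
lemma ut_low {u : Mt} (hu : IsUT u) {k l : Fin n} (h : l < k) : u k l = 0 := by
  rw [hu k l h.le, if_neg h.ne']

/-- The entry above the diagonal at a simple root is additive. -/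
lemma phi_mul {u v : Mt} (hu : IsUT u) (hv : IsUT v) : (u * v) i j = u i j + v i j := by
  have hlt : i < j := by
    rw [Fin.lt_def]
    omega
  rw [Matrix.mul_apply, Finset.sum_eq_add i j hlt.ne]
  · rw [ut_diag hu, ut_diag hv, one_mul, mul_one, add_comm]
  · intro c _ hc
    obtain ⟨hc1, hc2⟩ := hc
    by_cases h1 : c < i
    · rw [ut_low hu h1, zero_mul]
    · have h2 : j < c := by
        have h3 : (i : ℕ) ≠ c := fun h => hc1 (Fin.ext h.symm)
        have h4 : (j : ℕ) ≠ c := fun h => hc2 (Fin.ext h.symm)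
        have h5 : (i : ℕ) ≤ c := not_lt.mp h1
        rw [Fin.lt_def]
        omega
      rw [ut_low hv h2, mul_zero]
  · simp
  · simp

/-- The complement of the root element in `U`. -/
def Us : Subgroup SLn where
  carrier := {u | u ∈ U n F ∧ (u : Mt) i j = 0}
  mul_mem' := fun {a b} ha hb => ⟨(U n F).mul_mem ha.1 hb.1, by
    rw [Matrix.SpecialLinearGroup.coe_mul, phi_mul i j hadj ha.1 hb.1, ha.2, hb.2, add_zero]⟩
  one_mem' := ⟨(U n F).one_mem, by
    have hlt : i ≠ j := by
      intro h
      rw [h] at hadj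
      omega
    rw [Matrix.SpecialLinearGroup.coe_one, Matrix.one_apply_ne hlt]⟩
  inv_mem' := fun {a} ha => ⟨(U n F).inv_mem ha.1, by
    have hlt : i ≠ j := by
      intro h
      rw [h] at hadj
      omega
    have h1 := phi_mul i j hadj ha.1 ((U n F).inv_mem ha.1)
    rw [← Matrix.SpecialLinearGroup.coe_mul, mul_inv_cancel, Matrix.SpecialLinearGroup.coe_one,
      Matrix.one_apply_ne hlt, ha.2, zero_add] at h1
    exact h1.symm⟩

lemma mem_Us {u : SLn} : u ∈ Us i j hadj ↔ u ∈ U n F ∧ (u : Mt) i j = 0 := Iff.rfl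

end Root

section Weyl

variable (i j : Fin n)

/-- The sign function of the Weyl element. -/
def eps (j : Fin n) (k : Fin n) : F := if k = j then -1 else 1

omit [Finite F] in
lemma eps_ne (k : Fin n) : (eps j k : F) ≠ 0 := by
  rw [eps]
  split_ifs
  · exact neg_ne_zero.mpr one_ne_zero
  · exact one_ne_zero

omit [Finite F] in
lemma eps_mul_self (k : Fin n) : (eps j k : F) * eps j k = 1 := by
  rw [eps]
  split_ifs <;> simp

omit [Finite F] in
lemma eps_inv (k : Fin n) : (eps j k : F)⁻¹ = eps j k :=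
  inv_eq_of_mul_eq_one_left (eps_mul_self j k)

/-- The Weyl element. -/
def nS (hne : i ≠ j) : SLn :=
  ⟨fun k l => if k = Equiv.swap i j l then eps j k else 0, by
    have h : IsMono (Equiv.swap i j) (eps j : Fin n → F)
        (fun k l => if k = Equiv.swap i j l then eps j k else 0 : Mt) := fun _ _ => rfl
    rw [det_of_isMono h, Equiv.Perm.sign_swap hne]
    have h2 : ∏ k, (eps j k : F) = -1 := by
      simp only [eps]
      rw [Finset.prod_ite_eq' Finset.univ j (fun _ => (-1 : F))]
      simp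
    rw [h2]
    simp⟩

lemma nS_mono (hne : i ≠ j) : IsMono (Equiv.swap i j) (eps j : Fin n → F) ((nS i j hne : SLn) : Mt) :=
  fun _ _ => rfl

/-- The torus element. -/
def hS (hne : i ≠ j) (d : Fˣ) : SLn :=
  ⟨Matrix.diagonal fun k => if k = i then (d : F) else if k = j then ((d⁻¹ : Fˣ) : F) else 1, by
    rw [Matrix.det_diagonal]
    have h : ∀ k : Fin n, (if k = i then (d : F) else if k = j then ((d⁻¹ : Fˣ) : F) else 1) =
        (if k = i then (d : F) else 1) * (if k = j then ((d⁻¹ : Fˣ) : F) else 1) := by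
      intro k
      by_cases h1 : k = i
      · subst h1
        simp [hne]
      · simp [h1]
    simp_rw [h]
    rw [Finset.prod_mul_distrib, Finset.prod_ite_eq' Finset.univ i (fun _ => (d : F)),
      Finset.prod_ite_eq' Finset.univ j (fun _ => ((d⁻¹ : Fˣ) : F))]
    simp⟩

lemma hS_coe (hne : i ≠ j) (d : Fˣ) : ((hS i j hne d : SLn) : Mt) =
    Matrix.diagonal fun k => if k = i then (d : F) else if k = j then ((d⁻¹ : Fˣ) : F) else 1 := rfl

lemma hS_mem (hne : i ≠ j) (d : Fˣ) : hS i j hne d ∈ Tt n F := by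
  rw [mem_Tt, hS_coe]
  intro k l hkl
  exact Matrix.diagonal_apply_ne _ hkl

lemma hS_mul (hne : i ≠ j) (c d : Fˣ) : hS i j hne (c * d) = hS i j hne c * hS i j hne d := by
  apply Subtype.ext
  rw [Matrix.SpecialLinearGroup.coe_mul, hS_coe, hS_coe, hS_coe, Matrix.diagonal_mul_diagonal]
  congr 1
  funext k
  by_cases h1 : k = i
  · simp [h1]
  · by_cases h2 : k = j
    · subst h2
      simp [hne.symm, mul_comm]
    · simp [h1, h2]

/-- The big relation. -/
lemma big_rel (hne : i ≠ j) (d : Fˣ) :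
    nS i j hne * xS i j hne ((d : F)⁻¹) * (nS i j hne)⁻¹ =
      xS i j hne (-(d : F)) * hS i j hne d * nS i j hne * xS i j hne (-(d : F)) := by
  apply Subtype.ext
  ext k l
  rw [conj_apply (nS_mono i j hne) (eps_ne j)]
  set D : Fin n → F := fun k => if k = i then (d : F) else if k = j then ((d⁻¹ : Fˣ) : F) else 1 with hD
  have e : ((xS i j hne (-(d : F)) * hS i j hne d * nS i j hne * xS i j hne (-(d : F)) : SLn) : Mt) =
      transvection i j (-(d : F)) * ((Matrix.diagonal D * ((nS i j hne : SLn) : Mt)) * transvection i j (-(d : F))) := by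
    simp only [Matrix.SpecialLinearGroup.coe_mul, xS_coe, hS_coe, mul_assoc]
    rfl
  rw [e, transv_mul_apply, mul_transv_apply, mul_transv_apply, Matrix.diagonal_mul, Matrix.diagonal_mul,
    Matrix.diagonal_mul, Matrix.diagonal_mul, nS_mono i j hne, nS_mono i j hne, nS_mono i j hne, nS_mono i j hne,
    xS_coe, transv_apply, Equiv.swap_inv]
  have hd0 : (d : F) ≠ 0 := d.ne_zero
  have hne' := hne.symm
  simp only [Equiv.swap_apply_def, eps, hD]
  by_cases h1 : k = i
  · subst h1
    by_cases h3 : l = k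
    · subst h3
      simp [hne, hne']
    · by_cases h4 : l = j
      · subst h4
        simp [hne, hne', h3]
      · simp [hne, hne', h3, h4, Ne.symm h3, Ne.symm h4]
  · by_cases h2 : k = j
    · subst h2
      by_cases h3 : l = i
      · subst h3
        simp [hne, hne', h1]
      · by_cases h4 : l = k
        · subst h4
          simp [hne, hne', h3, h1]
        · simp [hne, hne', h1, h3, h4, Ne.symm h3, Ne.symm h4]
    · by_cases h3 : l = i
      · subst h3
        simp [hne, hne', h1, h2, Ne.symm h1, Ne.symm h2]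
      · by_cases h4 : l = j
        · subst h4
          simp [hne, hne', h1, h2, h3, Ne.symm h1, Ne.symm h2]
        · by_cases h5 : k = l
          · subst h5
            simp [hne, hne', h1, h2]
          · simp [hne, hne', h1, h2, h3, h4, h5]

end Weyl

section Adj

variable (i j : Fin n) (hadj : (j : ℕ) = i + 1)
include hadj

lemma adj_lt : i < j := by
  rw [Fin.lt_def]
  omega

omit [Finite F] in
/-- The adjacent transposition preserves the order, except on the simple root. -/
lemma swap_le {k l : Fin n} (hkl : l ≤ k) (h : ¬ (k = j ∧ l = i)) : Equiv.swap i j l ≤ Equiv.swap i j k := by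
  rw [Fin.le_def] at hkl ⊢
  simp only [Equiv.swap_apply_def]
  have e1 : ∀ x y : Fin n, x = y ↔ (x : ℕ) = y := fun x y => Fin.ext_iff
  rw [e1 k j, e1 l i] at h
  split_ifs with h1 h2 h3 h4 h5 h6 h7 h8 <;>
  · first
      | (subst h1; subst_vars; omega)
      | (simp only [e1] at *; omega)

lemma conj_Us {u : SLn} (hu : u ∈ Us i j hadj) : nS i j (adj_lt i j hadj).ne * u * (nS i j (adj_lt i j hadj).ne)⁻¹ ∈ Us i j hadj := by
  have hne := (adj_lt i j hadj).ne
  have hlt := adj_lt i j hadj
  refine ⟨?_, ?_⟩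
  · rw [mem_U]
    intro k l hkl
    rw [conj_apply (nS_mono i j hne) (eps_ne j), Equiv.swap_inv]
    by_cases h : k = j ∧ l = i
    · obtain ⟨rfl, rfl⟩ := h
      rw [Equiv.swap_apply_right, Equiv.swap_apply_left, hu.2, mul_zero, if_neg hne.symm]
    · have h1 := hu.1 _ _ (swap_le i j hadj hkl h)
      rw [h1]
      by_cases h2 : k = l
      · subst h2
        rw [if_pos rfl, if_pos rfl, mul_one, mul_inv_cancel₀ (eps_ne j k)]
      · rw [if_neg (fun h3 => h2 ((Equiv.swap i j).injective h3)), if_neg h2, mul_zero]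
  · rw [conj_apply (nS_mono i j hne) (eps_ne j), Equiv.swap_inv, Equiv.swap_apply_left, Equiv.swap_apply_right,
      ut_low hu.1 hlt, mul_zero]

lemma xS_entry (a : F) : ((xS i j (adj_lt i j hadj).ne a : SLn) : Mt) i j = a := by
  rw [xS_coe, transv_apply, if_neg (adj_lt i j hadj).ne, if_pos ⟨rfl, rfl⟩, zero_add]

lemma xS_conj_Us (a : F) {u : SLn} (hu : u ∈ Us i j hadj) :
    xS i j (adj_lt i j hadj).ne a * u * (xS i j (adj_lt i j hadj).ne a)⁻¹ ∈ Us i j hadj := by
  have hlt := adj_lt i j hadj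
  have hx := xS_mem (F := F) i j hlt a
  have hxi : (xS i j hlt.ne a)⁻¹ = xS i j hlt.ne (-a) := by
    rw [inv_eq_iff_mul_eq_one, ← xS_add, add_neg_cancel, xS_zero]
  refine ⟨(U n F).mul_mem ((U n F).mul_mem hx hu.1) ((U n F).inv_mem hx), ?_⟩
  rw [hxi, Matrix.SpecialLinearGroup.coe_mul, phi_mul i j hadj ((U n F).mul_mem hx hu.1) (xS_mem i j hlt _),
    Matrix.SpecialLinearGroup.coe_mul, phi_mul i j hadj hx hu.1, hu.2, xS_entry i j hadj, xS_entry i j hadj]
  ring

lemma exists_fact' {u : SLn} (hu : u ∈ U n F) : ∃ u' ∈ Us i j hadj, ∃ a, u = u' * xS i j (adj_lt i j hadj).ne a := by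
  have hlt := adj_lt i j hadj
  refine ⟨u * xS i j hlt.ne (-(u : Mt) i j), ⟨(U n F).mul_mem hu (xS_mem i j hlt _), ?_⟩, (u : Mt) i j, ?_⟩
  · rw [Matrix.SpecialLinearGroup.coe_mul, phi_mul i j hadj hu (xS_mem i j hlt _), xS_entry i j hadj]
    ring
  · rw [mul_assoc, ← xS_add, neg_add_cancel, xS_zero, mul_one]

lemma fact_inj' {u' : SLn} (hu' : u' ∈ Us i j hadj) (a : F) (h : u' * xS i j (adj_lt i j hadj).ne a = 1) : a = 0 := by
  have hlt := adj_lt i j hadj
  have h1 := phi_mul (F := F) i j hadj hu'.1 (xS_mem i j hlt a)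
  rw [← Matrix.SpecialLinearGroup.coe_mul, h, Matrix.SpecialLinearGroup.coe_one, Matrix.one_apply_ne hlt.ne, hu'.2,
    zero_add, xS_entry i j hadj] at h1
  exact h1.symm

/-- The square of the Weyl element. -/
lemma nn_apply (k l : Fin n) : ((nS i j (adj_lt i j hadj).ne * nS i j (adj_lt i j hadj).ne : SLn) : Mt) k l =
    if k = l then eps j k * eps j (Equiv.swap i j k) else 0 := by
  have hne := (adj_lt i j hadj).ne
  rw [Matrix.SpecialLinearGroup.coe_mul, (nS_mono i j hne).mul_apply, nS_mono i j hne, Equiv.swap_inv]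
  by_cases h : k = l
  · subst h
    simp
  · rw [if_neg h, if_neg, mul_zero]
    intro h2
    exact h ((Equiv.swap i j).injective h2)

lemma nn_mem : nS i j (adj_lt i j hadj).ne * nS i j (adj_lt i j hadj).ne ∈ Tt n F := by
  rw [mem_Tt]
  intro k l hkl
  rw [nn_apply i j hadj, if_neg hkl]

lemma nn_comm (a : F) : xS i j (adj_lt i j hadj).ne a * (nS i j (adj_lt i j hadj).ne * nS i j (adj_lt i j hadj).ne) =
    (nS i j (adj_lt i j hadj).ne * nS i j (adj_lt i j hadj).ne) * xS i j (adj_lt i j hadj).ne a := by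
  have hne := (adj_lt i j hadj).ne
  have hd := nn_mem (F := F) i j hadj
  apply Subtype.ext
  ext k l
  have e1 : ((xS i j hne a * (nS i j hne * nS i j hne) : SLn) : Mt) k l =
      ((xS i j hne a : SLn) : Mt) k l * ((nS i j hne * nS i j hne : SLn) : Mt) l l := by
    rw [Matrix.SpecialLinearGroup.coe_mul]
    exact IsDg.apply_mul hd _ _ _
  have e2 : (((nS i j hne * nS i j hne) * xS i j hne a : SLn) : Mt) k l =
      ((nS i j hne * nS i j hne : SLn) : Mt) k k * ((xS i j hne a : SLn) : Mt) k l := by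
    rw [Matrix.SpecialLinearGroup.coe_mul]
    exact IsDg.mul_apply hd _ _ _
  rw [e1, e2, xS_coe, transv_apply, nn_apply i j hadj, nn_apply i j hadj, if_pos rfl, if_pos rfl]
  by_cases h : k = l
  · subst h
    have : ¬ (k = i ∧ k = j) := fun h => hne (h.1.symm.trans h.2)
    rw [if_pos rfl, if_neg this]
    ring
  · rw [if_neg h, zero_add]
    by_cases h2 : k = i ∧ l = j
    · obtain ⟨rfl, rfl⟩ := h2
      simp [eps, hne, hne.symm]
    · rw [if_neg h2]
      ring

omit hadj in
/-- The reversal. -/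
def revP (n : ℕ) : Equiv.Perm (Fin n) := Fin.revPerm

omit [Finite F] in
omit hadj in
lemma revP_apply (k : Fin n) : revP n k = Fin.rev k := rfl

omit [Finite F] in
omit hadj in
lemma revP_inv : (revP n)⁻¹ = revP n := by
  ext k
  simp [revP, Equiv.Perm.inv_def]

lemma w_mem' {ε₀ : Fin n → F} {n₀ : SLn} (hn₀ : IsMono (revP n) ε₀ (n₀ : Mt)) (hε₀ : ∀ k, ε₀ k ≠ 0) (a : F) :
    n₀ * (nS i j (adj_lt i j hadj).ne)⁻¹ * xS i j (adj_lt i j hadj).ne a * nS i j (adj_lt i j hadj).ne * n₀⁻¹ ∈ U n F := by
  have hne := (adj_lt i j hadj).ne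
  have hlt := adj_lt i j hadj
  have e : n₀ * (nS i j hne)⁻¹ * xS i j hne a * nS i j hne * n₀⁻¹ =
      n₀ * ((nS i j hne)⁻¹ * xS i j hne a * nS i j hne) * n₀⁻¹ := by group
  rw [e, mem_U]
  intro k l hkl
  rw [conj_apply hn₀ hε₀, conj_apply' (nS_mono i j hne) (eps_ne j), revP_inv, xS_coe, transv_apply]
  have h1 : ¬ (Equiv.swap i j (revP n k) = i ∧ Equiv.swap i j (revP n l) = j) := by
    rintro ⟨h2, h3⟩
    have h4 : revP n k = j := by
      have := congrArg (Equiv.swap i j) h2
      simpa using this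
    have h5 : revP n l = i := by
      have := congrArg (Equiv.swap i j) h3
      simpa using this
    rw [revP_apply] at h4 h5
    have h6 : (Fin.rev k : ℕ) = j := congrArg Fin.val h4
    have h7 : (Fin.rev l : ℕ) = i := congrArg Fin.val h5
    rw [Fin.val_rev] at h6 h7
    have h8 : (l : ℕ) ≤ k := hkl
    have := k.2
    have := l.2
    omega
  rw [if_neg h1, add_zero]
  by_cases h2 : k = l
  · subst h2
    rw [if_pos rfl, if_pos rfl, mul_one, mul_inv_cancel₀ (hε₀ k), one_mul, inv_mul_cancel₀ (eps_ne j _)]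
  · have h3 : ¬ (Equiv.swap i j (revP n k) = Equiv.swap i j (revP n l)) := by
      intro h3
      exact h2 ((revP n).injective ((Equiv.swap i j).injective h3))
    rw [if_neg h3, if_neg h2]
    simp

end Adj

/-- The rank one data of a simple root. -/
def rankOne [Fintype F] (i j : Fin n) (hadj : (j : ℕ) = i + 1) {ε₀ : Fin n → F} {n₀ : SLn}
    (hn₀ : IsMono (revP n) ε₀ (n₀ : Mt)) (hε₀ : ∀ k, ε₀ k ≠ 0) :
    RankOne (U n F) (Tt n F) n₀ F where
  x := xS i j (adj_lt i j hadj).ne
  Us := Us i j hadj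
  n := nS i j (adj_lt i j hadj).ne
  h := hS i j (adj_lt i j hadj).ne
  x_zero := xS_zero i j _
  x_add := xS_add i j _
  x_mem := xS_mem i j (adj_lt i j hadj)
  Us_le := fun _ h => h.1
  exists_fact := fun _ hu => exists_fact' i j hadj hu
  fact_inj := fun _ hu a h => fact_inj' i j hadj hu a h
  n_Us := fun _ hu => conj_Us i j hadj hu
  x_Us := fun a _ hu => xS_conj_Us i j hadj a hu
  h_mem := hS_mem i j _
  h_mul := hS_mul i j _
  tau_mem := nn_mem i j hadj
  tau_comm := nn_comm i j hadj
  big := big_rel i j _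
  w_mem := w_mem' i j hadj hn₀ hε₀

/-! ### The torus is generated by the simple root tori -/

lemma ne_zero_diag {t : SLn} (ht : t ∈ Tt n F) (k : Fin n) : (t : Mt) k k ≠ 0 := by
  intro h
  have := Tt_inv_mul ht k
  rw [h, zero_mul] at this
  exact zero_ne_one this

lemma eq_one_of_diag (hn : 0 < n) {t : SLn} (ht : t ∈ Tt n F) (h : ∀ k : Fin n, k.val + 1 < n → (t : Mt) k k = 1) :
    t = 1 := by
  let last : Fin n := ⟨n - 1, by omega⟩
  have e1 : (t : Mt) = Matrix.diagonal fun k => (t : Mt) k k := by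
    ext k l
    by_cases hkl : k = l
    · subst hkl
      simp
    · rw [ht k l hkl, Matrix.diagonal_apply_ne _ hkl]
  have hdet : ∏ k, (t : Mt) k k = 1 := by
    rw [← Matrix.det_diagonal, ← e1]
    exact t.2
  have hlast : (t : Mt) last last = 1 := by
    have h5 : ∏ k, (t : Mt) k k = (t : Mt) last last := by
      refine Finset.prod_eq_single last ?_ (by simp)
      intro k _ hk
      apply h
      have h2 : (k : ℕ) ≠ n - 1 := fun h3 => hk (Fin.ext h3)
      have := k.2
      omega
    exact h5.symm.trans hdet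
  apply Subtype.ext
  ext k l
  by_cases hkl : k = l
  · subst hkl
    rw [Matrix.SpecialLinearGroup.coe_one, Matrix.one_apply_eq]
    by_cases hk : k.val + 1 < n
    · exact h k hk
    · have : k = last := by
        apply Fin.ext
        have := k.2
        change (k : ℕ) = n - 1
        omega
      rw [this, hlast]
  · rw [ht k l hkl, Matrix.SpecialLinearGroup.coe_one, Matrix.one_apply_ne hkl]

/-- The torus is generated by the rank one tori. -/
theorem Tt_le (hn : 0 < n) {Q : Subgroup SLn}
    (hQ : ∀ (i j : Fin n) (hne : i ≠ j), (j : ℕ) = i + 1 → ∀ d : Fˣ, hS i j hne d ∈ Q) : Tt n F ≤ Q := by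
  have key : ∀ r : ℕ, ∀ t : SLn, t ∈ Tt n F → (∀ k : Fin n, k.val + r + 1 < n → (t : Mt) k k = 1) → t ∈ Q := by
    intro r
    induction r with
    | zero =>
      intro t ht h
      rw [eq_one_of_diag hn ht (fun k hk => h k (by omega))]
      exact Q.one_mem
    | succ r ih =>
      intro t ht h
      by_cases hm : r + 2 ≤ n
      · let i : Fin n := ⟨n - 2 - r, by omega⟩
        let j : Fin n := ⟨n - 1 - r, by omega⟩
        have hadj : (j : ℕ) = i + 1 := by
          change n - 1 - r = n - 2 - r + 1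
          omega
        have hne : i ≠ j := (adj_lt i j hadj).ne
        let d : Fˣ := Units.mk0 ((t : Mt) i i) (ne_zero_diag ht i)
        have h1 : t * hS i j hne d⁻¹ ∈ Tt n F := (Tt n F).mul_mem ht (hS_mem i j hne _)
        have h2 : t * hS i j hne d⁻¹ ∈ Q := by
          refine ih _ h1 fun k hk => ?_
          have e1 : ((t * hS i j hne d⁻¹ : SLn) : Mt) k k = (t : Mt) k k * ((hS i j hne d⁻¹ : SLn) : Mt) k k := by
            rw [Matrix.SpecialLinearGroup.coe_mul]
            exact IsDg.mul_apply ht _ _ _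
          rw [e1, hS_coe, Matrix.diagonal_apply_eq]
          by_cases hki : k = i
          · subst hki
            rw [if_pos rfl]
            simp [d]
            exact mul_inv_cancel₀ (ne_zero_diag ht _)
          · have hkj : k ≠ j := by
              rintro rfl
              change n - 1 - r + r + 1 < n at hk
              omega
            rw [if_neg hki, if_neg hkj, mul_one]
            apply h
            have h3 : (k : ℕ) ≠ n - 2 - r := fun h4 => hki (Fin.ext h4)
            omega
        have h3 : t = (t * hS i j hne d⁻¹) * (hS i j hne d⁻¹)⁻¹ := by group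
        rw [h3]
        exact Q.mul_mem h2 (Q.inv_mem (hQ i j hne hadj _))
      · exact ih t ht fun k hk => by
          have := k.2
          omega
  intro t ht
  exact key n t ht fun k hk => by omega

/-! ### The big cell -/

/-- Upper triangular matrices. -/
def IsUp (A : Mt) : Prop := ∀ i j, j < i → A i j = 0

omit [Finite F] in
lemma IsUp.mul {A B : Mt} (hA : IsUp A) (hB : IsUp B) : IsUp (A * B) := by
  intro i j hij
  rw [Matrix.mul_apply]
  refine Finset.sum_eq_zero fun c _ => ?_
  by_cases h : c < i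
  · rw [hA i c h, zero_mul]
  · rw [hB c j (lt_of_lt_of_le hij (not_lt.mp h)), mul_zero]

omit [Finite F] in
lemma IsUp.mul_diag {A B : Mt} (hA : IsUp A) (hB : IsUp B) (i : Fin n) : (A * B) i i = A i i * B i i := by
  rw [Matrix.mul_apply]
  refine Finset.sum_eq_single i ?_ (by simp)
  intro c _ hc
  rcases lt_or_gt_of_ne hc with h | h
  · rw [hA i c h, zero_mul]
  · rw [hB c i h, mul_zero]

omit [Finite F] in
lemma up_of_Bor {b : GL (Fin n) F} (hb : b ∈ Bor (n := n) F) : IsUp (b : Mt) := fun i j hij => hb hij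

omit [Finite F] in
lemma up_of_UT {A : Mt} (hA : IsUT A) : IsUp A := fun i j hij => by
  rw [hA i j hij.le, if_neg hij.ne']

omit [Finite F] in
lemma diag_inv_Bor {b : GL (Fin n) F} (hb : b ∈ Bor (n := n) F) (i : Fin n) :
    (b : Mt) i i * ((b⁻¹ : GL (Fin n) F) : Mt) i i = 1 := by
  have h1 : (b : Mt) * ((b⁻¹ : GL (Fin n) F) : Mt) = 1 := by
    rw [← Units.val_mul, mul_inv_cancel, Units.val_one]
  have h2 := congrFun (congrFun h1 i) i
  rwa [IsUp.mul_diag (up_of_Bor hb) (up_of_Bor (inv_mem hb)), Matrix.one_apply_eq] at h2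

omit [Finite F] in
lemma ut_conj_Bor {b : GL (Fin n) F} (hb : b ∈ Bor (n := n) F) {E : Mt} (hE : IsUT E) :
    IsUT ((b : Mt) * E * ((b⁻¹ : GL (Fin n) F) : Mt)) := by
  have hup := up_of_Bor hb
  have hup' := up_of_Bor (inv_mem hb)
  have hE' := up_of_UT hE
  intro i j hij
  rcases lt_or_eq_of_le hij with h | h
  · rw [if_neg h.ne', (hup.mul hE').mul hup' i j h]
  · subst h
    rw [if_pos rfl, IsUp.mul_diag (hup.mul hE') hup', IsUp.mul_diag hup hE', hE _ _ le_rfl, if_pos rfl, mul_one,
      diag_inv_Bor hb]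

omit [Finite F] in
lemma pm_mono (w : Equiv.Perm (Fin n)) : IsMono w (fun _ => (1 : F)) (pm F w) := fun _ _ => rfl

lemma pm_transv (w : Equiv.Perm (Fin n)) (i j : Fin n) (c : F) :
    pm F w * transvection i j c = transvection (w i) (w j) c * pm F w := by
  ext k l
  rw [(pm_mono w).mul_apply, (pm_mono w).apply_mul, transv_apply, transv_apply, one_mul, mul_one]
  have h1 : w⁻¹ k = l ↔ k = w l := by
    constructor
    · rintro rfl
      simp
    · rintro rfl
      simp
  have h2 : w⁻¹ k = i ↔ k = w i := by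
    constructor
    · rintro rfl
      simp
    · rintro rfl
      simp
  have h3 : l = j ↔ w l = w j := w.injective.eq_iff.symm
  simp only [h1, h2, h3]

/-- An existing monomial element of determinant one. -/
theorem exists_n0 (hn : 0 < n) : ∃ (ε₀ : Fin n → Fˣ) (n₀ : SLn), IsMono (revP n) (fun k => (ε₀ k : F)) (n₀ : Mt) := by
  let z : Fin n := ⟨0, hn⟩
  let c : Fˣ := Units.map (Int.castRingHom F).toMonoidHom (Equiv.Perm.sign (revP n))
  let ε₀ : Fin n → Fˣ := Function.update 1 z c
  let A : Mt := fun k l => if k = revP n l then (ε₀ k : F) else 0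
  have hdet : A.det = 1 := by
    have h : IsMono (revP n) (fun k => (ε₀ k : F)) A :=
      fun _ _ => rfl
    rw [det_of_isMono h]
    have h2 : ∏ k, (ε₀ k : F) = (c : F) := by
      rw [Finset.prod_eq_single z]
      · simp [ε₀]
      · intro b _ hb
        simp [ε₀, Function.update_of_ne hb]
      · simp
    rw [h2]
    have h3 : (c : F) = (((Equiv.Perm.sign (revP n) : ℤˣ) : ℤ) : F) := rfl
    rw [h3, ← Int.cast_mul, ← Units.val_mul, Int.units_mul_self]
    simp
  exact ⟨ε₀, ⟨_, hdet⟩, fun _ _ => rfl⟩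

/-- The hypothesis on the big cell holds in `SL_n(F)`. -/
theorem cellHyp {ε₀ : Fin n → Fˣ} {n₀ : SLn} (hn₀ : IsMono (revP n) (fun k => (ε₀ k : F)) (n₀ : Mt)) :
    CellHyp (U n F) (Tt n F) n₀ := by
  classical
  intro a
  obtain ⟨b, hb, b', hb', w, hw⟩ := bruhat_GL (incSL n F a)
  by_cases hcase : ∃ i j, i < j ∧ w i < w j
  · right
    obtain ⟨i, j, hij, hwij⟩ := hcase
    set E : GL (Fin n) F := incSL n F (xS i j hij.ne 1) with hE
    have hEv : (E : Mt) = transvection i j 1 := rfl
    have hEu : IsUT (E : Mt) := xS_mem i j hij 1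
    set X : GL (Fin n) F := b'⁻¹ * E * b' with hXd
    have hX : IsUT (X : Mt) := by
      have h := ut_conj_Bor (inv_mem hb') hEu
      rw [inv_inv] at h
      exact h
    let x : SLn := ⟨(X : Mt), hX.det⟩
    have hxG : incSL n F x = X := Units.ext rfl
    refine ⟨x, hX, ?_, ?_⟩
    · intro h
      have h1 : X = 1 := by
        rw [← hxG, h, map_one]
      have h2 : E = 1 := by
        have h3 : E = b' * X * b'⁻¹ := by
          rw [hXd]
          group
        rw [h3, h1]
        group
      have h3 : (E : Mt) i j = 1 := by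
        rw [hEv, transv_apply, if_neg hij.ne, if_pos ⟨rfl, rfl⟩, zero_add]
      rw [h2, Units.val_one, Matrix.one_apply_ne hij.ne] at h3
      exact zero_ne_one h3
    · set E' : GL (Fin n) F := incSL n F (xS (w i) (w j) hwij.ne 1) with hE'
      have hE'v : (E' : Mt) = transvection (w i) (w j) 1 := rfl
      have hE'u : IsUT (E' : Mt) := xS_mem _ _ hwij 1
      have h1 : Pm F w * E = E' * Pm F w := by
        apply Units.ext
        rw [Units.val_mul, Units.val_mul, hEv, hE'v, Pm_val]
        exact pm_transv w i j 1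
      have h2 : incSL n F (a * x * a⁻¹) = b * E' * b⁻¹ := by
        rw [map_mul, map_mul, map_inv, hxG, hw, hXd]
        have h3 : E' = Pm F w * E * (Pm F w)⁻¹ := by
          rw [h1]
          group
        rw [h3]
        group
      rw [mem_U]
      have h3 := ut_conj_Bor hb hE'u
      rw [← Units.val_mul, ← Units.val_mul, ← h2] at h3
      exact h3
  · left
    push Not at hcase
    -- the permutation is the reversal
    have hrev : w = revP n := by
      have hf : StrictMono (fun k => w (revP n k)) := by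
        intro x y hxy
        have h1 : revP n y < revP n x := by
          rw [revP_apply, revP_apply]
          exact Fin.rev_lt_rev.mpr hxy
        have h2 := hcase _ _ h1
        refine lt_of_le_of_ne h2 ?_
        intro h3
        have h4 := (revP n).injective (w.injective h3)
        exact hxy.ne h4
      have hsurj : Function.Surjective (fun k => w (revP n k)) := w.surjective.comp (revP n).surjective
      have h1 := StrictMono.range_inj hf strictMono_id |>.mp (by
        rw [hsurj.range_eq]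
        exact Function.Surjective.range_eq Function.surjective_id |>.symm)
      ext k
      have h2 := congrFun h1 (revP n k)
      have h3 : revP n (revP n k) = k := by
        simp [revP]
      simp only [h3, id_eq] at h2
      rw [h2]
    subst hrev
    -- the diagonal parts
    let d₁ : Fin n → Fˣ := fun k => Units.mk0 ((b : Mt) k k) (fun h => by
      have := diag_inv_Bor hb k
      rw [h, zero_mul] at this
      exact zero_ne_one this)
    let d₂ : Fin n → Fˣ := fun k => Units.mk0 ((b' : Mt) k k) (fun h => by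
      have := diag_inv_Bor hb' k
      rw [h, zero_mul] at this
      exact zero_ne_one this)
    set u₁ : GL (Fin n) F := b * (dg d₁)⁻¹ with hu₁
    set u₂ : GL (Fin n) F := (dg d₂)⁻¹ * b' with hu₂
    have h1 : IsUT (u₁ : Mt) := by
      have e : (u₁ : Mt) = (b : Mt) * Matrix.diagonal (fun i => (((d₁ i)⁻¹ : Fˣ) : F)) := rfl
      intro i j hij
      rw [e, Matrix.mul_diagonal]
      rcases lt_or_eq_of_le hij with h | h
      · rw [if_neg h.ne', up_of_Bor hb i j h, zero_mul]
      · subst h
        rw [if_pos rfl]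
        simp [d₁]
        exact mul_inv_cancel₀ (d₁ _).ne_zero
    have h2 : IsUT (u₂ : Mt) := by
      have e : (u₂ : Mt) = Matrix.diagonal (fun i => (((d₂ i)⁻¹ : Fˣ) : F)) * (b' : Mt) := rfl
      intro i j hij
      rw [e, Matrix.diagonal_mul]
      rcases lt_or_eq_of_le hij with h | h
      · rw [if_neg h.ne', up_of_Bor hb' i j h, mul_zero]
      · subst h
        rw [if_pos rfl]
        simp [d₂]
        exact inv_mul_cancel₀ (d₂ _).ne_zero
    let u₁S : SLn := ⟨(u₁ : Mt), h1.det⟩
    let u₂S : SLn := ⟨(u₂ : Mt), h2.det⟩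
    have hu₁G : incSL n F u₁S = u₁ := Units.ext rfl
    have hu₂G : incSL n F u₂S = u₂ := Units.ext rfl
    have hn₀G : incSL n F n₀ = dg ε₀ * Pm F (revP n) := by
      apply Units.ext
      ext k l
      rw [incSL_val, hn₀ k l, Units.val_mul, dg_val, Pm_val, Matrix.diagonal_mul]
      change _ = _ * (if k = revP n l then 1 else 0)
      split_ifs <;> simp
    have hcomm : Pm F (revP n) * dg d₂ = dg (fun i => d₂ ((revP n)⁻¹ i)) * Pm F (revP n) := by
      rw [dg_mul_Pm]
      congr 2
      funext i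
      simp
    set t : SLn := u₁S⁻¹ * a * u₂S⁻¹ * n₀⁻¹ with ht
    have htG : incSL n F t = dg d₁ * dg (fun i => d₂ ((revP n)⁻¹ i)) * (dg ε₀)⁻¹ := by
      rw [ht, map_mul, map_mul, map_mul, map_inv, map_inv, map_inv, hu₁G, hu₂G, hn₀G, hw, hu₁, hu₂]
      have e1 : (b * (dg d₁)⁻¹)⁻¹ * (b * Pm F (revP n) * b') * ((dg d₂)⁻¹ * b')⁻¹ *
          (dg ε₀ * Pm F (revP n))⁻¹ = dg d₁ * (Pm F (revP n) * dg d₂) * (Pm F (revP n))⁻¹ * (dg ε₀)⁻¹ := by
        group
      rw [e1, hcomm]
      group
    have hdg : ∀ d : Fin n → Fˣ, IsDg ((dg d : GL (Fin n) F) : Mt) := fun d k l hkl => by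
      rw [dg_val]
      exact Matrix.diagonal_apply_ne _ hkl
    have hdg' : ∀ d : Fin n → Fˣ, IsDg (((dg d)⁻¹ : GL (Fin n) F) : Mt) := fun d k l hkl => by
      change Matrix.diagonal (fun i => (((d i)⁻¹ : Fˣ) : F)) k l = 0
      exact Matrix.diagonal_apply_ne _ hkl
    have htT : t ∈ Tt n F := by
      rw [mem_Tt]
      have e : (t : Mt) = ((incSL n F t : GL (Fin n) F) : Mt) := rfl
      rw [e, htG, Units.val_mul, Units.val_mul]
      exact ((hdg _).mul (hdg _)).mul (hdg' _)
    refine ⟨u₁S, h1, t, htT, u₂S, h2, ?_⟩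
    rw [ht]
    group

/-! ### Conclusions -/

section Main

variable {k : Type*} [Field k] [Fintype F] [DecidableEq F]
  [Fintype (Matrix.SpecialLinearGroup (Fin n) F)]

local notation "δ" => MonoidAlgebra.of k (Matrix.SpecialLinearGroup (Fin n) F)

lemma isPGroup_Uu (p : ℕ) [hp : Fact p.Prime] [CharP F p] : IsPGroup p (U n F) := by
  obtain ⟨f, -, hF⟩ := FiniteField.card F p
  exact isPGroup_U hp.out hF

lemma card_cast (p : ℕ) [hp : Fact p.Prime] [CharP k p] [CharP F p] : (Fintype.card F : k) = 0 := by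
  obtain ⟨f, -, hF⟩ := FiniteField.card F p
  rw [hF, Nat.cast_pow, CharP.cast_eq_zero, zero_pow f.ne_zero]

/-- The torus acts trivially on the invariants. -/
theorem htriv_SL (p : ℕ) [hp : Fact p.Prime] [CharP k p] [CharP F p] (hn : 0 < n) {ε₀ : Fin n → Fˣ} {n₀ : SLn} (hn₀ : IsMono (revP n) (fun k => (ε₀ k : F)) (n₀ : Mt))
    {e : MonoidAlgebra k SLn} (hec : ∀ y : MonoidAlgebra k SLn, y * e = e * y) (hee : e * e = e) {g₀ : SLn} {c : k}
    (hc : c ≠ 0) (hZ : (∑ h : SLn, δ h * δ g₀ * nrm k (U n F) * δ h⁻¹) * e = c • e) :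
    ∀ t ∈ Tt n F, ∀ v ∈ Nb (U n F) e, v * δ t = v := by
  have hU : IsPGroup p (U n F) := isPGroup_Uu p
  have hT : ∀ t ∈ Tt n F, ∀ u ∈ U n F, t * u * t⁻¹ ∈ U n F := fun t ht u hu => Tt_conj ht hu
  have hcell := cellHyp hn₀
  let Q : Subgroup SLn :=
    { carrier := {g | ∀ v ∈ Nb (U n F) e, v * δ g = v}
      mul_mem' := fun {a b} ha hb v hv => by
        rw [map_mul, ← mul_assoc, ha v hv, hb v hv]
      one_mem' := fun v _ => by rw [map_one, mul_one]
      inv_mem' := fun {a} ha v hv => by
        have h1 := ha v hv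
        calc v * δ a⁻¹ = (v * δ a) * δ a⁻¹ := by rw [h1]
          _ = v := by rw [mul_assoc, ← map_mul, mul_inv_cancel, map_one, mul_one] }
  have hQ : Tt n F ≤ Q := Tt_le hn (fun i j hne hadj d v hv => by
    let R := rankOne i j hadj hn₀ (fun k => (ε₀ k).ne_zero)
    exact R.mul_h_eq hT hU hcell hec hee hc hZ (card_cast p) hv d)
  exact fun t ht v hv => hQ ht v hv

/-- The scalar of a class sum, for central idempotents in the ideal generated by the norm of `U`. -/
theorem omega_SL (p : ℕ) [hp : Fact p.Prime] [CharP k p] [CharP F p] (hn : 0 < n) {ε₀ : Fin n → Fˣ} {n₀ : SLn} (hn₀ : IsMono (revP n) (fun k => (ε₀ k : F)) (n₀ : Mt))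
    {e : MonoidAlgebra k SLn} (hec : ∀ y : MonoidAlgebra k SLn, y * e = e * y) (hee : e * e = e) (he : e ≠ 0)
    {g₀ : SLn} {c : k} (hc : c ≠ 0) (hZ : (∑ h : SLn, δ h * δ g₀ * nrm k (U n F) * δ h⁻¹) * e = c • e)
    (K : Finset SLn) (hK : ∀ y : MonoidAlgebra k SLn, y * ∑ g ∈ K, δ g = (∑ g ∈ K, δ g) * y) {ω : k}
    (hω : (∑ g ∈ K, δ g) * e = ω • e) :
    open scoped _root_.Classical in
    ω = ((K.filter fun g => Cell (U n F) (Tt n F) n₀ (g * n₀)).card : k) :=
  omega_eq_card (isPGroup_Uu p) (fun t ht u hu => Tt_conj ht hu) (cellHyp hn₀) hec hee he hc hZ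
    (htriv_SL p hn hn₀ hec hee hc hZ) K hK hω

end Main

end Cfsg.Agent.Lib.DefBlocks.SLnData
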