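import Cfsg.Agent.Lib.DefBlocks.Lift
import Cfsg.Agent.Lib.DefBlocks.SLn

/-!
# Uniqueness of the block of defect zero of `SL_n(F)` in the defining characteristic

All irreducible characters of defect zero have the same central character modulo `M`: on the class of `g`
it is the number of elements `h` of the class with `h n₀` in the big cell.
-/

set_option autoImplicit false
set_option linter.unusedSectionVars false
set_option linter.unusedSimpArgs false
set_option linter.unusedVariables false
set_option linter.style.haveILetI false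

namespace Cfsg.Agent.Lib.DefBlocks.SLnData

open Cfsg MonoidAlgebra
open Cfsg.Agent.Lib.BlockAlg
open Cfsg.Agent.Lib.Blocks.Local Cfsg.Agent.Lib.Blocks.Central Cfsg.Agent.Lib.Blocks.Brauer
open Cfsg.Agent.Lib.Blk89.BlockPow
open Cfsg.Agent.Lib.KS71.UniTri

/-- Any two irreducible characters of defect zero lie in the same block. -/
theorem sameBlock_of_defect_zero {F : Type*} [Field F] [Fintype F] {n : ℕ} (hn : 0 < n) {p : ℕ} [hp : Fact p.Prime]
    [CharP F p] {M : Ideal AlgInt} (hM : IsPModular p M)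
    (χ ψ : IrrCharacter (Matrix.SpecialLinearGroup (Fin n) F))
    (hχ : ¬ p ∣ Nat.card (Matrix.SpecialLinearGroup (Fin n) F) / charDegree (χ : Matrix.SpecialLinearGroup (Fin n) F → ℂ))
    (hψ : ¬ p ∣ Nat.card (Matrix.SpecialLinearGroup (Fin n) F) / charDegree (ψ : Matrix.SpecialLinearGroup (Fin n) F → ℂ)) :
    SameBlock M (χ : Matrix.SpecialLinearGroup (Fin n) F → ℂ) (ψ : Matrix.SpecialLinearGroup (Fin n) F → ℂ) := by
  classical
  haveI := hM.2.1.isPrime
  letI : Fintype (Matrix.SpecialLinearGroup (Fin n) F) := Fintype.ofFinite _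
  haveI := Cfsg.Agent.Lib.Char.Ortho.finite_irrCharacter (G := Matrix.SpecialLinearGroup (Fin n) F)
  letI : Fintype (IrrCharacter (Matrix.SpecialLinearGroup (Fin n) F)) := Fintype.ofFinite _
  obtain ⟨ε₀, n₀, hn₀⟩ := exists_n0 (F := F) hn
  haveI := charP_res hM
  have key : ∀ (θ : IrrCharacter (Matrix.SpecialLinearGroup (Fin n) F)),
      ¬ p ∣ Nat.card (Matrix.SpecialLinearGroup (Fin n) F) / charDegree (θ : Matrix.SpecialLinearGroup (Fin n) F → ℂ) → ∀ g,
      r M (centralChar (θ : Matrix.SpecialLinearGroup (Fin n) F → ℂ) g) =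
        (((Finset.univ.filter (fun h => IsConj g h)).filter
          (fun h => Cfsg.Agent.Lib.DefBlocks.Cell (U n F) (Tt n F) n₀ (h * n₀))).card : Res M) := by
    intro θ hd g
    obtain ⟨g₀, c, hc, hZ⟩ := Cfsg.Agent.Lib.DefBlocks.exists_Z hM θ hd (isPGroup_Uu (F := F) (n := n) p)
    have h := omega_SL p hn hn₀ (Cfsg.Agent.Lib.DefBlocks.Ered_central θ) (Cfsg.Agent.Lib.DefBlocks.Ered_idem hM θ hd)
      (Cfsg.Agent.Lib.DefBlocks.Ered_ne_zero hM θ hd) hc hZ _
      (Cfsg.Agent.Lib.DefBlocks.class_central g) (Cfsg.Agent.Lib.DefBlocks.class_mul hM θ hd g)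
    convert h
  intro g
  have hχl := memLocalRing_of_isIntegral (M := M) (isIntegral_centralChar χ g)
  have hψl := memLocalRing_of_isIntegral (M := M) (isIntegral_centralChar ψ g)
  rw [← r_eq_zero_iff (memLocalRing_sub hχl hψl), r_sub' hχl hψl, key χ hχ g, key ψ hψ g, sub_self]

end Cfsg.Agent.Lib.DefBlocks.SLnData
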